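import Mathlib
import Cfsg.Agent.Lib.Helper22.CoprimeP
import Cfsg.Agent.Lib.Helper88.CoprimeAbelian

/-!
# S4305: `S₃` acting fixed point freely on a solvable group of order prime to 6: definitions

Ambient form `Hyp`: `G ⊴ Γ`, `Γ = G⟨s,t⟩`, `s³ = t² = 1`, `t s t⁻¹ = s⁻¹`, `C_G(s,t) = 1`.
Module form `Mod`: everything inside `MulAut W`, `W` a finite elementary abelian `r`-group,
irreducible under `Gam H s t = H⟨s,t⟩`.
-/

set_option autoImplicit false

namespace Cfsg.Agent.Lib.Helper71.S3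

open Subgroup Cfsg.Agent.Lib.Helper22 Cfsg.Agent.Lib.Helper88

/-- `s, t` satisfy the relations of `S₃` -/
structure Rel {Γ : Type*} [Group Γ] (s t : Γ) : Prop where
  s3 : s ^ 3 = 1
  t2 : t ^ 2 = 1
  rel : t * s * t⁻¹ = s⁻¹

/-- the hypotheses of S4305, ambient form -/
structure Hyp {Γ : Type*} [Group Γ] (G : Subgroup Γ) (s t : Γ) : Prop where
  rel : Rel s t
  normal : G.Normal
  sup : G ⊔ closure {s, t} = ⊤
  sol : Group.IsSolvable G
  cop : (Nat.card G).Coprime 6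
  fix : ∀ x ∈ G, s * x = x * s → t * x = x * t → x = 1

variable {W : Type*} [CommGroup W]

/-- the group `H⟨s,t⟩` -/
def Gam (H : Subgroup (MulAut W)) (s t : MulAut W) : Subgroup (MulAut W) := H ⊔ closure {s, t}

/-- the module situation -/
structure Mod (r : ℕ) (H : Subgroup (MulAut W)) (s t : MulAut W) : Prop where
  rel : Rel s t
  sH : ∀ h ∈ H, s * h * s⁻¹ ∈ H
  tH : ∀ h ∈ H, t * h * t⁻¹ ∈ H
  copH : (Nat.card H).Coprime 6
  copW : (Nat.card W).Coprime 6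
  fixH : ∀ h ∈ H, s * h = h * s → t * h = h * t → h = 1
  fixW : ∀ w : W, s w = w → t w = w → w = 1
  irr : ∀ U : Subgroup W, (∀ g ∈ Gam H s t, ∀ u ∈ U, g u ∈ U) → U = ⊥ ∨ U = ⊤
  rP : r.Prime
  expW : ∀ w : W, w ^ r = 1
  ntW : ∃ w : W, w ≠ 1

/-- an abelian normal subgroup `Z ≠ 1` of `H⟨s,t⟩` inside `H`, of order prime to `|W|` -/
structure ZHyp (H Z : Subgroup (MulAut W)) (s t : MulAut W) : Prop where
  le : Z ≤ H
  ne : Z ≠ ⊥
  comm : ∀ x ∈ Z, ∀ y ∈ Z, x * y = y * x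
  norm : ∀ g ∈ Gam H s t, ∀ z ∈ Z, g * z * g⁻¹ ∈ Z
  cop : (Nat.card Z).Coprime (Nat.card W)

/-- the subgroups `K ≤ Z` maximal subject to `C_W(K) ≠ 1` -/
def Kset [Finite W] (Z : Subgroup (MulAut W)) : Set (Subgroup (MulAut W)) :=
  {K | K ≤ Z ∧ fixedSub K ≠ ⊥ ∧
    ∀ K' : Subgroup (MulAut W), K' ≤ Z → K ≤ K' → fixedSub K' ≠ ⊥ → K' = K}

theorem Rel.s_inv {Γ : Type*} [Group Γ] {s t : Γ} (h : Rel s t) : s⁻¹ = s ^ 2 := by
  rw [inv_eq_iff_mul_eq_one, ← pow_succ', h.s3]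

theorem Rel.t_inv {Γ : Type*} [Group Γ] {s t : Γ} (h : Rel s t) : t⁻¹ = t := by
  rw [inv_eq_iff_mul_eq_one, ← sq, h.t2]

theorem Rel.map {Γ Γ' : Type*} [Group Γ] [Group Γ'] {s t : Γ} (h : Rel s t) (f : Γ →* Γ') :
    Rel (f s) (f t) :=
  ⟨by rw [← map_pow, h.s3, map_one], by rw [← map_pow, h.t2, map_one],
    by rw [← map_inv, ← map_mul, ← map_mul, h.rel, map_inv]⟩

theorem H_le_Gam (H : Subgroup (MulAut W)) (s t : MulAut W) : H ≤ Gam H s t := le_sup_left

theorem s_mem_Gam (H : Subgroup (MulAut W)) (s t : MulAut W) : s ∈ Gam H s t :=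
  mem_sup_right (subset_closure (by simp))

theorem t_mem_Gam (H : Subgroup (MulAut W)) (s t : MulAut W) : t ∈ Gam H s t :=
  mem_sup_right (subset_closure (by simp))

/-- to bound `Gam` it is enough to treat the generators -/
theorem Gam_le {H : Subgroup (MulAut W)} {s t : MulAut W} {L : Subgroup (MulAut W)}
    (hH : H ≤ L) (hs : s ∈ L) (ht : t ∈ L) : Gam H s t ≤ L := by
  refine sup_le hH ?_
  rw [closure_le]
  rintro x (rfl | rfl)
  · exact hs
  · exact ht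

/-- a subgroup of `W` invariant under `H`, `s`, `t` is invariant under `Gam H s t` -/
theorem invariant_of_gens [Finite W] {H : Subgroup (MulAut W)} {s t : MulAut W} (U : Subgroup W)
    (hH : ∀ h ∈ H, ∀ u ∈ U, h u ∈ U) (hs : ∀ u ∈ U, s u ∈ U) (ht : ∀ u ∈ U, t u ∈ U) :
    ∀ g ∈ Gam H s t, ∀ u ∈ U, g u ∈ U := by
  let L : Subgroup (MulAut W) :=
    { carrier := {g | ∀ u, u ∈ U ↔ g u ∈ U}
      one_mem' := fun u => Iff.rfl
      mul_mem' := fun {a b} ha hb u => (hb u).trans (ha (b u))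
      inv_mem' := fun {a} ha u => by
        have := ha (a⁻¹ u)
        rw [MulAut.apply_inv_self] at this
        exact this.symm }
  have key : ∀ g : MulAut W, (∀ u ∈ U, g u ∈ U) → g ∈ L := by
    intro g hg u
    refine ⟨hg u, fun hu => ?_⟩
    have hinj : Function.Injective (fun x : U => (⟨g x, hg x x.2⟩ : U)) := by
      intro a b hab
      exact Subtype.ext (g.injective (congrArg Subtype.val hab))
    obtain ⟨x, hx⟩ := (Finite.injective_iff_surjective.mp hinj) ⟨g u, hu⟩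
    have : g x = g u := congrArg Subtype.val hx
    rw [← g.injective this]
    exact x.2
  have hle : Gam H s t ≤ L := Gam_le (fun h hh => key h (hH h hh)) (key s hs) (key t ht)
  intro g hg u hu
  exact (hle hg u).mp hu

/-- irreducibility, tested on generators -/
theorem Mod.irr' [Finite W] {r : ℕ} {H : Subgroup (MulAut W)} {s t : MulAut W} (hM : Mod r H s t)
    (U : Subgroup W) (hH : ∀ h ∈ H, ∀ u ∈ U, h u ∈ U) (hs : ∀ u ∈ U, s u ∈ U)
    (ht : ∀ u ∈ U, t u ∈ U) : U = ⊥ ∨ U = ⊤ :=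
  hM.irr U (invariant_of_gens U hH hs ht)

/-- a subgroup of `MulAut W` normalized by `H`, `s`, `t` is normalized by `Gam H s t` -/
theorem normalized_of_gens [Finite W] {H : Subgroup (MulAut W)} {s t : MulAut W}
    (N : Subgroup (MulAut W))
    (hH : ∀ h ∈ H, ∀ x ∈ N, h * x * h⁻¹ ∈ N) (hs : ∀ x ∈ N, s * x * s⁻¹ ∈ N)
    (ht : ∀ x ∈ N, t * x * t⁻¹ ∈ N) : ∀ g ∈ Gam H s t, ∀ x ∈ N, g * x * g⁻¹ ∈ N := by
  have key : ∀ g : MulAut W, (∀ x ∈ N, g * x * g⁻¹ ∈ N) → g ∈ normalizer (N : Set (MulAut W)) := by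
    intro g hg
    rw [mem_normalizer_iff]
    intro x
    refine ⟨hg x, fun hx => ?_⟩
    have hinj : Function.Injective (fun y : N => (⟨g * y * g⁻¹, hg y y.2⟩ : N)) := by
      intro a b hab
      have : g * a * g⁻¹ = g * b * g⁻¹ := congrArg Subtype.val hab
      exact Subtype.ext (by simpa using this)
    obtain ⟨y, hy⟩ := (Finite.injective_iff_surjective.mp hinj) ⟨g * x * g⁻¹, hx⟩
    have : g * y * g⁻¹ = g * x * g⁻¹ := congrArg Subtype.val hy
    have h2 : (y : MulAut W) = x := by simpa using this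
    rw [← h2]
    exact y.2
  have hle : Gam H s t ≤ normalizer (N : Set (MulAut W)) :=
    Gam_le (fun h hh => key h (hH h hh)) (key s hs) (key t ht)
  intro g hg x hx
  exact (mem_normalizer_iff.mp (hle hg) x).mp hx

theorem Mod.H_normalized [Finite W] {r : ℕ} {H : Subgroup (MulAut W)} {s t : MulAut W}
    (hM : Mod r H s t) : ∀ g ∈ Gam H s t, ∀ x ∈ H, g * x * g⁻¹ ∈ H :=
  normalized_of_gens H (fun h hh x hx => H.mul_mem (H.mul_mem hh hx) (H.inv_mem hh)) hM.sH hM.tH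

end Cfsg.Agent.Lib.Helper71.S3
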