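import Mathlib
import Cfsg.Agent.Lib.Helper71.S3.Defs

/-!
# S4305: fixed points in homomorphic images
-/

set_option autoImplicit false

namespace Cfsg.Agent.Lib.Helper71.S3

open Subgroup Cfsg.Agent.Lib.Helper22

/-- an element commuting with `b` commutes with `zpowers b` -/
theorem mem_centralizer_zpowers {Γ : Type*} [Group Γ] {b x : Γ} (h : b * x = x * b) :
    x ∈ centralizer ((zpowers b : Subgroup Γ) : Set Γ) := by
  rw [centralizer_zpowers, mem_centralizer_iff]
  intro c hc
  rw [Set.mem_singleton_iff] at hc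
  rw [hc]; exact h

theorem comm_of_mem_centralizer_zpowers {Γ : Type*} [Group Γ] {b x : Γ}
    (h : x ∈ centralizer ((zpowers b : Subgroup Γ) : Set Γ)) : b * x = x * b :=
  mem_centralizer_iff.mp h b (mem_zpowers b)

theorem zpowers_le_normalizer {Γ : Type*} [Group Γ] [Finite Γ] {b : Γ} {N : Subgroup Γ}
    (h : ∀ n ∈ N, b * n * b⁻¹ ∈ N) : zpowers b ≤ normalizer (N : Set Γ) := by
  rw [zpowers_le, mem_normalizer_iff]
  intro x
  refine ⟨h x, fun hx => ?_⟩
  have hinj : Function.Injective (fun y : N => (⟨b * y * b⁻¹, h y y.2⟩ : N)) := by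
    intro a c hac
    have : b * a * b⁻¹ = b * c * b⁻¹ := congrArg Subtype.val hac
    exact Subtype.ext (by simpa using this)
  obtain ⟨y, hy⟩ := (Finite.injective_iff_surjective.mp hinj) ⟨b * x * b⁻¹, hx⟩
  have : b * y * b⁻¹ = b * x * b⁻¹ := congrArg Subtype.val hy
  have h2 : (y : Γ) = x := by simpa using this
  rw [← h2]
  exact y.2

theorem Hyp.fix_map {Γ Γ' : Type*} [Group Γ] [Finite Γ] [Group Γ'] {G : Subgroup Γ} {s t : Γ}
    (h : Hyp G s t) (f : Γ →* Γ') :
    ∀ y ∈ G.map f, f s * y = y * f s → f t * y = y * f t → y = 1 := by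
  rintro _ ⟨x, hx, rfl⟩ hs ht
  have hGn := h.normal
  have h3 : ¬ 3 ∣ Nat.card G := by
    intro hd
    have := Nat.Coprime.coprime_dvd_left hd h.cop
    norm_num at this
  have h2 : ¬ 2 ∣ Nat.card G := by
    intro hd
    have := Nat.Coprime.coprime_dvd_left hd h.cop
    norm_num at this
  haveI : Fact (Nat.Prime 3) := ⟨Nat.prime_three⟩
  haveI : Fact (Nat.Prime 2) := ⟨Nat.prime_two⟩
  -- step 1
  let N : Subgroup Γ := G ⊓ f.ker
  have hNn : N.Normal := inferInstance
  obtain ⟨n, hn, hc1⟩ := exists_fixed_in_coset (p := 3) (zpowers s) N (isPGroup_zpowers h.rel.s3)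
    (not_dvd_card_of_le inf_le_left h3) le_normalizer_of_normal x (by
      intro a ha
      refine mem_inf.mpr ⟨G.mul_mem (G.inv_mem hx) (hGn.conj_mem x hx a), ?_⟩
      rw [MonoidHom.mem_ker]
      have hfa : f a * f x = f x * f a := by
        have : f a ∈ zpowers (f s) := by
          obtain ⟨k, rfl⟩ := mem_zpowers_iff.mp ha
          rw [map_zpow]; exact zpow_mem (mem_zpowers _) k
        exact mem_centralizer_iff.mp (mem_centralizer_zpowers hs) _ this
      simp only [map_mul, map_inv]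
      rw [hfa]; group)
  have hs1 : s * (x * n) = (x * n) * s := comm_of_mem_centralizer_zpowers hc1
  have hx1G : x * n ∈ G := G.mul_mem hx (mem_inf.mp hn).1
  have hfx1 : f (x * n) = f x := by
    rw [map_mul, MonoidHom.mem_ker.mp (mem_inf.mp hn).2, mul_one]
  set x1 := x * n with hx1
  -- step 2
  let N' : Subgroup Γ := N ⊓ centralizer ((zpowers s : Subgroup Γ) : Set Γ)
  have htconj : ∀ c : Γ, s * c = c * s → s * (t * c * t⁻¹) = (t * c * t⁻¹) * s := by
    intro c hc
    have e1 : t⁻¹ * s * t = s⁻¹ := by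
      have := h.rel.rel
      rw [h.rel.t_inv] at this ⊢
      exact this
    have hc' : s⁻¹ * c = c * s⁻¹ := by
      calc s⁻¹ * c = s⁻¹ * (c * s) * s⁻¹ := by group
        _ = s⁻¹ * (s * c) * s⁻¹ := by rw [hc]
        _ = c * s⁻¹ := by group
    calc s * (t * c * t⁻¹) = t * ((t⁻¹ * s * t) * c) * t⁻¹ := by group
      _ = t * (c * (t⁻¹ * s * t)) * t⁻¹ := by rw [e1, hc']
      _ = (t * c * t⁻¹) * s := by group
  obtain ⟨n', hn', hc2⟩ := exists_fixed_in_coset (p := 2) (zpowers t) N' (isPGroup_zpowers h.rel.t2)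
    (not_dvd_card_of_le (inf_le_left.trans inf_le_left) h2)
    (zpowers_le_normalizer (by
      intro c hc
      refine mem_inf.mpr ⟨hNn.conj_mem c (mem_inf.mp hc).1 t, ?_⟩
      exact mem_centralizer_zpowers (htconj c (comm_of_mem_centralizer_zpowers (mem_inf.mp hc).2))))
    x1 (by
      have key : ∀ a : Γ, (f a * f x1 = f x1 * f a) → (∀ c : Γ, s * c = c * s → s * (a * c * a⁻¹) = (a * c * a⁻¹) * s) →
          x1⁻¹ * (a * x1 * a⁻¹) ∈ N' := by
        intro a hfa hac
        refine mem_inf.mpr ⟨mem_inf.mpr ⟨G.mul_mem (G.inv_mem hx1G) (hGn.conj_mem x1 hx1G a), ?_⟩, ?_⟩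
        · rw [MonoidHom.mem_ker]
          simp only [map_mul, map_inv]
          rw [hfa]; group
        · apply mem_centralizer_zpowers
          have e2 := hac x1 hs1
          have e3 : s * x1⁻¹ = x1⁻¹ * s := by
            calc s * x1⁻¹ = x1⁻¹ * (x1 * s) * x1⁻¹ := by group
              _ = x1⁻¹ * (s * x1) * x1⁻¹ := by rw [hs1]
              _ = x1⁻¹ * s := by group
          calc s * (x1⁻¹ * (a * x1 * a⁻¹)) = (s * x1⁻¹) * (a * x1 * a⁻¹) := by group
            _ = x1⁻¹ * (s * (a * x1 * a⁻¹)) := by rw [e3]; group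
            _ = x1⁻¹ * (a * x1 * a⁻¹) * s := by rw [e2]; group
      intro a ha
      -- `zpowers t = {1, t}`
      have hat : a = 1 ∨ a = t := by
        obtain ⟨k, rfl⟩ := mem_zpowers_iff.mp ha
        rcases Int.even_or_odd' k with ⟨j, rfl | rfl⟩
        · left
          rw [zpow_mul, zpow_ofNat, h.rel.t2, one_zpow]
        · right
          rw [zpow_add, zpow_mul, zpow_ofNat, h.rel.t2, one_zpow, one_mul, zpow_one]
      rcases hat with rfl | rfl
      · simp
      · exact key a (by rw [hfx1]; exact ht) htconj)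
  have ht2 : t * (x1 * n') = (x1 * n') * t := comm_of_mem_centralizer_zpowers hc2
  have hn's : s * n' = n' * s := comm_of_mem_centralizer_zpowers (mem_inf.mp hn').2
  have hs2 : s * (x1 * n') = (x1 * n') * s := by
    calc s * (x1 * n') = (s * x1) * n' := by group
      _ = x1 * (s * n') := by rw [hs1]; group
      _ = (x1 * n') * s := by rw [hn's]; group
  have hx2G : x1 * n' ∈ G := G.mul_mem hx1G (mem_inf.mp (mem_inf.mp hn').1).1
  have hone := h.fix _ hx2G hs2 ht2
  have : f (x1 * n') = f x := by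
    rw [map_mul, MonoidHom.mem_ker.mp (mem_inf.mp (mem_inf.mp hn').1).2, mul_one, hfx1]
  rw [← this, hone, map_one]

theorem Hyp.map {Γ Γ' : Type*} [Group Γ] [Finite Γ] [Group Γ'] {G : Subgroup Γ} {s t : Γ}
    (h : Hyp G s t) (f : Γ →* Γ') (hf : Function.Surjective f) : Hyp (G.map f) (f s) (f t) where
  rel := h.rel.map f
  normal := h.normal.map f hf
  sup := by
    have := congrArg (Subgroup.map f) h.sup
    rw [Subgroup.map_sup, MonoidHom.map_closure, Set.image_pair, map_top_of_surjective f hf] at this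
    exact this
  sol := by
    haveI := h.sol
    let φ : G →* G.map f := f.subgroupMap G
    exact Group.isSolvable_of_surjective (f := φ) (f.subgroupMap_surjective G)
  cop := Nat.Coprime.coprime_dvd_left (card_map_dvd G f) h.cop
  fix := h.fix_map f

end Cfsg.Agent.Lib.Helper71.S3
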