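import Mathlib
import Cfsg.Agent.Lib.Helper71.S3.Defs
import Cfsg.Agent.Lib.Helper71.S3.FixMap
import Cfsg.Agent.Lib.Helper73.WardE1

/-!
# S4305: from a minimal normal subgroup `V` to the module situation
-/

set_option autoImplicit false

namespace Cfsg.Agent.Lib.Helper71.S3

open Subgroup Cfsg.Agent.Lib.Helper22

universe u

theorem Hyp.commutator_le_centralizer {Γ : Type u} [Group Γ] [Finite Γ] {G : Subgroup Γ} {s t : Γ}
    (h : Hyp G s t) (V : Subgroup Γ) [V.Normal] (hVG : V ≤ G) (hV1 : V ≠ ⊥)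
    (hmin : ∀ M : Subgroup Γ, M.Normal → M ≤ V → M = ⊥ ∨ M = V)
    (k : ℕ) (hk : (⁅G, G⁆ : Subgroup Γ).lowerCentralSeries k ≤ V)
    (MT : ∀ (W : Type u) [CommGroup W] [Finite W] (r : ℕ) (H : Subgroup (MulAut W)) (s t : MulAut W),
      Mod r H s t → Group.IsNilpotent ↥⁅H, H⁆ → ∀ a ∈ H, ∀ b ∈ H, a * b = b * a) :
    ⁅G, G⁆ ≤ centralizer (V : Set Γ) := by
  classical
  have hGn : G.Normal := h.normal
  let c : Γ →* MulAut V := MulAut.conjNormal
  have hc_apply : ∀ (g : Γ) (v : V), ((c g v : V) : Γ) = g * v * g⁻¹ := fun g v => rfl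
  have hker : c.ker = centralizer (V : Set Γ) := by
    ext g
    rw [MonoidHom.mem_ker, Subgroup.mem_centralizer_iff]
    constructor
    · intro hg v hv
      have h1 := hc_apply g ⟨v, hv⟩
      rw [hg] at h1
      have h2 : v = g * v * g⁻¹ := h1
      calc v * g = g * v * g⁻¹ * g := by rw [← h2]
        _ = g * v := by group
    · intro hg
      ext v
      rw [hc_apply, ← hg v v.2]
      simp
  have hsolG : Group.IsSolvable G := h.sol
  have hsolV : Group.IsSolvable V :=
    Group.isSolvable_of_isSolvable_injective (Subgroup.inclusion_injective hVG)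
  obtain ⟨hVc, r, hr, hVr⟩ := Cfsg.Agent.Lib.Helper73.Ward.minimal_normal_structure V hsolV hV1 hmin
  have hVker : V ≤ c.ker := by
    rw [hker]
    intro x hx
    rw [mem_centralizer_iff]
    intro y hy
    exact hVc y hy x hx
  suffices hs : ∀ a ∈ G.map c, ∀ b ∈ G.map c, a * b = b * a by
    rw [← hker, commutator_le]
    intro x hx y hy
    rw [MonoidHom.mem_ker, map_commutatorElement]
    exact commutatorElement_eq_one_iff_mul_comm.mpr
      (hs _ (mem_map_of_mem c hx) _ (mem_map_of_mem c hy))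
  have hnil : ∃ n, (⁅G.map c, G.map c⁆ : Subgroup (MulAut V)).lowerCentralSeries n = ⊥ := by
    refine ⟨k, ?_⟩
    rw [← map_commutator, ← Subgroup.map_lowerCentralSeries, Subgroup.map_eq_bot_iff]
    exact hk.trans hVker
  have hrange : G.map c ⊔ closure {c s, c t} = c.range := by
    have := congrArg (Subgroup.map c) h.sup
    rw [Subgroup.map_sup, MonoidHom.map_closure, Set.image_pair, ← MonoidHom.range_eq_map] at this
    exact this
  letI instV : CommGroup ↥V :=
    { (inferInstance : Group ↥V) with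
      mul_comm := fun x y => Subtype.ext (hVc x x.2 y y.2) }
  refine @MT ↥V instV _ r (G.map c) (c s) (c t) ?_ ((Subgroup.isNilpotent_iff_lowerCentralSeries _).2 hnil)
  refine
    { rel := h.rel.map c
      sH := ?_
      tH := ?_
      copH := Nat.Coprime.coprime_dvd_left (card_map_dvd G c) h.cop
      copW := Nat.Coprime.coprime_dvd_left (card_dvd_of_le hVG) h.cop
      fixH := h.fix_map c
      fixW := ?_
      irr := ?_
      rP := hr
      expW := fun w => Subtype.ext (hVr w w.2)
      ntW := ?_ }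
  · rintro _ ⟨x, hx, rfl⟩
    rw [← map_inv, ← map_mul, ← map_mul]
    exact mem_map_of_mem c (hGn.conj_mem x hx s)
  · rintro _ ⟨x, hx, rfl⟩
    rw [← map_inv, ← map_mul, ← map_mul]
    exact mem_map_of_mem c (hGn.conj_mem x hx t)
  · intro w hs ht
    have h1 : s * (w : Γ) * s⁻¹ = w := by rw [← hc_apply, hs]
    have h2 : t * (w : Γ) * t⁻¹ = w := by rw [← hc_apply, ht]
    apply Subtype.ext
    refine h.fix w (hVG w.2) ?_ ?_
    · calc s * (w : Γ) = s * w * s⁻¹ * s := by group
        _ = w * s := by rw [h1]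
    · calc t * (w : Γ) = t * w * t⁻¹ * t := by group
        _ = w * t := by rw [h2]
  · intro U hU
    have hUn : (U.map V.subtype).Normal := by
      constructor
      rintro _ ⟨u, hu, rfl⟩ g
      have hg : c g ∈ Gam (G.map c) (c s) (c t) := by
        show c g ∈ G.map c ⊔ closure {c s, c t}
        rw [hrange]
        exact ⟨g, rfl⟩
      exact ⟨c g u, hU _ hg u hu, rfl⟩
    rcases hmin _ hUn (by rintro _ ⟨u, _, rfl⟩; exact u.2) with h0 | h0
    · left
      rw [eq_bot_iff]
      intro u hu
      have : (u : Γ) ∈ U.map V.subtype := ⟨u, hu, rfl⟩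
      rw [h0, mem_bot] at this
      exact mem_bot.mpr (Subtype.ext this)
    · right
      rw [eq_top_iff]
      intro u _
      have : (u : Γ) ∈ U.map V.subtype := by rw [h0]; exact u.2
      obtain ⟨u', hu', he⟩ := this
      have : u' = u := Subtype.ext he
      exact this ▸ hu'
  · obtain ⟨x, hx⟩ := Subgroup.ne_bot_iff_exists_ne_one.mp hV1
    exact ⟨x, hx⟩

end Cfsg.Agent.Lib.Helper71.S3
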