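import Mathlib
import Cfsg.Agent.Lib.Helper71.S3.Defs

/-!
# Piece G: structure of Gam = H⟨s,t⟩ over H, conjugacy of elements of order 3
-/

set_option autoImplicit false
set_option linter.unusedSectionVars false

namespace Cfsg.Agent.Lib.Helper71.S3

open Subgroup Cfsg.Agent.Lib.Helper22 Cfsg.Agent.Lib.Helper88

section rel

variable {Γ : Type*} [Group Γ] {s t : Γ}

theorem Rel.gh_ss (h : Rel s t) : s * s = s⁻¹ := by rw [h.s_inv, sq]

theorem Rel.gh_ii (h : Rel s t) : s⁻¹ * s⁻¹ = s := by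
  have h1 : s ^ 3 = 1 := h.s3
  calc s⁻¹ * s⁻¹ = s⁻¹ * s⁻¹ * s ^ 3 := by rw [h1, mul_one]
    _ = s := by group

theorem Rel.gh_ts (h : Rel s t) : t * s = s⁻¹ * t := by rw [← h.rel]; group

theorem Rel.gh_ti (h : Rel s t) : t * s⁻¹ = s * t := by
  have h1 := h.gh_ts
  calc t * s⁻¹ = s * (s⁻¹ * t) * s⁻¹ := by group
    _ = s * (t * s) * s⁻¹ := by rw [h1]
    _ = s * t := by group

theorem Rel.gh_tt (h : Rel s t) : t * t = 1 := by rw [← sq, h.t2]

theorem Rel.gh_ss' (h : Rel s t) (x : Γ) : s * (s * x) = s⁻¹ * x := by rw [← mul_assoc, h.gh_ss]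
theorem Rel.gh_ii' (h : Rel s t) (x : Γ) : s⁻¹ * (s⁻¹ * x) = s * x := by rw [← mul_assoc, h.gh_ii]
theorem Rel.gh_ts' (h : Rel s t) (x : Γ) : t * (s * x) = s⁻¹ * (t * x) := by
  rw [← mul_assoc, h.gh_ts, mul_assoc]
theorem Rel.gh_ti' (h : Rel s t) (x : Γ) : t * (s⁻¹ * x) = s * (t * x) := by
  rw [← mul_assoc, h.gh_ti, mul_assoc]
theorem Rel.gh_tt' (h : Rel s t) (x : Γ) : t * (t * x) = x := by rw [← mul_assoc, h.gh_tt, one_mul]

theorem Rel.gh_t1 (h : Rel s t) : s * t * s⁻¹ = s⁻¹ * t := by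
  rw [mul_assoc, h.gh_ti, h.gh_ss']

theorem Rel.gh_t2 (h : Rel s t) : s⁻¹ * t * s = s * t := by
  rw [mul_assoc, h.gh_ts, h.gh_ii']

/-- the six elements of `⟨s,t⟩`, in normal form -/
theorem Rel.gh_mem (h : Rel s t) {b : Γ} (hb : b ∈ closure {s, t}) :
    b = 1 ∨ b = s ∨ b = s⁻¹ ∨ b = t ∨ b = s⁻¹ * t ∨ b = s * t := by
  induction hb using Subgroup.closure_induction_left with
  | one => left; rfl
  | mul_left x hx y hy ih =>
    have hx' : x = s ∨ x = t := hx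
    rcases hx' with rfl | rfl <;> rcases ih with rfl | rfl | rfl | rfl | rfl | rfl <;>
      simp [h.gh_ss, h.gh_ts, h.gh_ti, h.gh_tt, h.gh_ss', h.gh_ts', h.gh_ti']
  | inv_mul_cancel x hx y hy ih =>
    have hx' : x = s ∨ x = t := hx
    rcases hx' with rfl | rfl <;> rcases ih with rfl | rfl | rfl | rfl | rfl | rfl <;>
      simp [h.t_inv, h.gh_ii, h.gh_ts, h.gh_ti, h.gh_tt, h.gh_ii', h.gh_ts', h.gh_ti']

end rel

variable {W : Type*} [CommGroup W] [Finite W]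

variable {r : ℕ} {H : Subgroup (MulAut W)} {s t : MulAut W}

omit [Finite W] [CommGroup W] in
/-- the six elements of `⟨s,t⟩` -/
theorem mem_A {Γ : Type*} [Group Γ] {s t : Γ} (h : Rel s t) {b : Γ} (hb : b ∈ closure {s, t}) :
    b = 1 ∨ b = s ∨ b = s⁻¹ ∨ b = t ∨ b = s * t * s⁻¹ ∨ b = s⁻¹ * t * s := by
  rw [h.gh_t1, h.gh_t2]
  exact h.gh_mem hb

/-- `Gam = H * ⟨s,t⟩` -/
theorem gh_mem_Gam (hM : Mod r H s t) {g : MulAut W} (hg : g ∈ Gam H s t) :
    ∃ h ∈ H, ∃ b ∈ closure {s, t}, g = h * b := by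
  have hle : closure {s, t} ≤ Gam H s t := le_sup_right
  have hG : Gam H s t = closure ((H : Set (MulAut W)) ∪ {s, t}) := by
    rw [Subgroup.closure_union, Subgroup.closure_eq]; rfl
  rw [hG] at hg
  induction hg using Subgroup.closure_induction_left with
  | one => exact ⟨1, H.one_mem, 1, one_mem _, by simp⟩
  | mul_left x hx y hy ih =>
    obtain ⟨h, hh, b, hb, rfl⟩ := ih
    rcases hx with hx | hx
    · exact ⟨x * h, H.mul_mem hx hh, b, hb, by group⟩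
    · have hx' : x ∈ closure {s, t} := subset_closure hx
      exact ⟨x * h * x⁻¹, hM.H_normalized x (hle hx') h hh, x * b, mul_mem hx' hb, by group⟩
  | inv_mul_cancel x hx y hy ih =>
    obtain ⟨h, hh, b, hb, rfl⟩ := ih
    rcases hx with hx | hx
    · exact ⟨x⁻¹ * h, H.mul_mem (H.inv_mem hx) hh, b, hb, by group⟩
    · have hx' : x⁻¹ ∈ closure {s, t} := inv_mem (subset_closure hx)
      refine ⟨x⁻¹ * h * x, ?_, x⁻¹ * b, mul_mem hx' hb, by group⟩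
      have := hM.H_normalized x⁻¹ (hle hx') h hh
      rwa [inv_inv] at this

theorem exists_rep (hM : Mod r H s t) {g : MulAut W} (hg : g ∈ Gam H s t) :
    ∃ h ∈ H, ∃ i j : ℕ, g = h * s ^ i * t ^ j := by
  obtain ⟨h, hh, b, hb, rfl⟩ := gh_mem_Gam hM hg
  refine ⟨h, hh, ?_⟩
  rcases hM.rel.gh_mem hb with rfl | rfl | rfl | rfl | rfl | rfl
  · exact ⟨0, 0, by simp⟩
  · exact ⟨1, 0, by simp⟩
  · exact ⟨2, 0, by rw [hM.rel.s_inv]; simp⟩
  · exact ⟨0, 1, by simp⟩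
  · exact ⟨2, 1, by rw [hM.rel.s_inv]; simp [mul_assoc]⟩
  · exact ⟨1, 1, by simp [mul_assoc]⟩

theorem gh_conj_s_A (h : Rel s t) {b : MulAut W} (hb : b ∈ closure {s, t}) :
    b * s * b⁻¹ = s ∨ b * s * b⁻¹ = s⁻¹ := by
  rcases h.gh_mem hb with rfl | rfl | rfl | rfl | rfl | rfl
  · left; simp
  · left; simp
  · left; simp
  · right; exact h.rel
  · right
    calc s⁻¹ * t * s * (s⁻¹ * t)⁻¹ = s⁻¹ * (t * s * t⁻¹) * s := by group
      _ = s⁻¹ := by rw [h.rel]; group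
  · right
    calc s * t * s * (s * t)⁻¹ = s * (t * s * t⁻¹) * s⁻¹ := by group
      _ = s⁻¹ := by rw [h.rel]; group

theorem conj_s (hM : Mod r H s t) {g : MulAut W} (hg : g ∈ Gam H s t) :
    g * s * g⁻¹ * s⁻¹ ∈ H ∨ g * s * g⁻¹ * s ∈ H := by
  obtain ⟨h, hh, b, hb, rfl⟩ := gh_mem_Gam hM hg
  rcases gh_conj_s_A hM.rel hb with e | e
  · left
    have h1 : h * b * s * (h * b)⁻¹ * s⁻¹ = h * (s * h⁻¹ * s⁻¹) := by
      calc h * b * s * (h * b)⁻¹ * s⁻¹ = h * (b * s * b⁻¹) * h⁻¹ * s⁻¹ := by group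
        _ = h * (s * h⁻¹ * s⁻¹) := by rw [e]; group
    rw [h1]
    exact H.mul_mem hh (hM.sH _ (H.inv_mem hh))
  · right
    have h1 : h * b * s * (h * b)⁻¹ * s = h * (s⁻¹ * h⁻¹ * s⁻¹⁻¹) := by
      calc h * b * s * (h * b)⁻¹ * s = h * (b * s * b⁻¹) * h⁻¹ * s := by group
        _ = h * (s⁻¹ * h⁻¹ * s⁻¹⁻¹) := by rw [e]; group
    rw [h1]
    exact H.mul_mem hh (hM.H_normalized _ (inv_mem (s_mem_Gam H s t)) _ (H.inv_mem hh))

theorem gh_conj_ti (h : Rel s t) (i : ℕ) :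
    (s ^ i * t * (s ^ i)⁻¹) * s * (s ^ i * t * (s ^ i)⁻¹)⁻¹ = s⁻¹ := by
  have hc : (s ^ i)⁻¹ * s * s ^ i = s := by
    have : Commute (s ^ i) s := (Commute.refl s).pow_left i
    rw [mul_assoc, ← this.eq, inv_mul_cancel_left]
  have hc' : s ^ i * s⁻¹ * (s ^ i)⁻¹ = s⁻¹ := by
    have : Commute (s ^ i) s⁻¹ := ((Commute.refl s).pow_left i).inv_right
    rw [this.eq, mul_assoc, mul_inv_cancel, mul_one]
  calc (s ^ i * t * (s ^ i)⁻¹) * s * (s ^ i * t * (s ^ i)⁻¹)⁻¹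
      = s ^ i * (t * ((s ^ i)⁻¹ * s * s ^ i) * t⁻¹) * (s ^ i)⁻¹ := by group
    _ = s⁻¹ := by rw [hc, h.rel, hc']

theorem inv_mod_H (hM : Mod r H s t) {y : MulAut W} (hy : y * s⁻¹ ∈ H ∨ y * s ∈ H) (i : ℕ) :
    (s ^ i * t * (s ^ i)⁻¹) * y * (s ^ i * t * (s ^ i)⁻¹)⁻¹ * y ∈ H := by
  set τ := s ^ i * t * (s ^ i)⁻¹ with hτ
  have hτG : τ ∈ Gam H s t :=
    mul_mem (mul_mem (pow_mem (s_mem_Gam H s t) i) (t_mem_Gam H s t))
      (inv_mem (pow_mem (s_mem_Gam H s t) i))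
  have e : τ * s * τ⁻¹ = s⁻¹ := gh_conj_ti hM.rel i
  have e' : τ * s⁻¹ * τ⁻¹ = s := by
    have := congrArg (fun z => z⁻¹) e
    simp only [mul_inv_rev, inv_inv] at this
    rw [mul_assoc]; exact this
  rcases hy with hy | hy
  · -- y = h s
    have h1 : τ * y * τ⁻¹ * y
        = (τ * (y * s⁻¹) * τ⁻¹) * (s⁻¹ * (y * s⁻¹) * s⁻¹⁻¹) := by
      calc τ * y * τ⁻¹ * y = (τ * (y * s⁻¹) * τ⁻¹) * (τ * s * τ⁻¹) * y := by group
        _ = (τ * (y * s⁻¹) * τ⁻¹) * (s⁻¹ * (y * s⁻¹) * s⁻¹⁻¹) := by rw [e]; group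
    rw [h1]
    exact H.mul_mem (hM.H_normalized τ hτG _ hy)
      (hM.H_normalized _ (inv_mem (s_mem_Gam H s t)) _ hy)
  · have h1 : τ * y * τ⁻¹ * y = (τ * (y * s) * τ⁻¹) * (s * (y * s) * s⁻¹) := by
      calc τ * y * τ⁻¹ * y = (τ * (y * s) * τ⁻¹) * (τ * s⁻¹ * τ⁻¹) * y := by group
        _ = (τ * (y * s) * τ⁻¹) * (s * (y * s) * s⁻¹) := by rw [e']; group
    rw [h1]
    exact H.mul_mem (hM.H_normalized τ hτG _ hy) (hM.sH _ hy)

/-- a `3`-element of `H` is trivial -/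
theorem gh_eq_one_of_three (hM : Mod r H s t) {x : MulAut W} (hx : x ∈ H) {k : ℕ}
    (hk : x ^ 3 ^ k = 1) : x = 1 := by
  have h1 : orderOf x ∣ 3 ^ k := orderOf_dvd_of_pow_eq_one hk
  have h2 : orderOf x ∣ Nat.card H := by
    have := orderOf_dvd_natCard (⟨x, hx⟩ : H)
    rwa [Subgroup.orderOf_mk] at this
  have h3 : (Nat.card H).Coprime (3 ^ k) :=
    Nat.Coprime.pow_right k (Nat.Coprime.coprime_dvd_right (by norm_num) hM.copH)
  exact orderOf_eq_one_iff.1 (Nat.eq_one_of_dvd_coprimes h3 h2 h1)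

theorem gh_zpow_s (h : Rel s t) (n : ℤ) : s ^ n = 1 ∨ s ^ n = s ∨ s ^ n = s⁻¹ := by
  have h1 : s ^ n = s ^ (n % 3) := by
    conv_lhs => rw [← Int.mul_ediv_add_emod n 3, zpow_add, zpow_mul]
    have : s ^ (3 : ℤ) = 1 := by
      have := h.s3
      exact_mod_cast this
    rw [this, one_zpow, one_mul]
  have h2 : n % 3 = 0 ∨ n % 3 = 1 ∨ n % 3 = 2 := by omega
  rcases h2 with e | e | e
  · left; rw [h1, e, zpow_zero]
  · right; left; rw [h1, e, zpow_one]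
  · right; right
    rw [h1, e, h.s_inv]
    norm_cast

theorem gh_sylow (hM : Mod r H s t) : IsSylowIn 3 (zpowers s) (Gam H s t) := by
  have h := hM.rel
  rw [isSylowIn_iff]
  refine ⟨by rw [zpowers_le]; exact s_mem_Gam H s t, ?_, ?_⟩
  · rintro ⟨x, hx⟩
    obtain ⟨n, rfl⟩ := mem_zpowers_iff.1 hx
    refine ⟨1, Subtype.ext ?_⟩
    show (s ^ n) ^ 3 ^ 1 = 1
    rw [pow_one, ← zpow_natCast, ← zpow_mul, mul_comm, zpow_mul, zpow_natCast, h.s3, one_zpow]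
  · intro R hR hRG hsR
    apply le_antisymm _ hsR
    intro x hx
    have hsR' : s ∈ R := hsR (mem_zpowers s)
    obtain ⟨k, hk⟩ := hR ⟨x, hx⟩
    have hk' : x ^ 3 ^ k = 1 := congrArg Subtype.val hk
    obtain ⟨h0, hh0, b, hb, rfl⟩ := gh_mem_Gam hM (hRG hx)
    have three : ∀ z ∈ R, z ∈ H → z = 1 := by
      intro z hz hzH
      obtain ⟨k, hk⟩ := hR ⟨z, hz⟩
      exact gh_eq_one_of_three hM hzH (congrArg Subtype.val hk)
    have invol : b * b = 1 → h0 * b ∈ zpowers s := by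
      intro hbb
      have hbG : b ∈ Gam H s t := (le_sup_right : closure {s, t} ≤ Gam H s t) hb
      have h1 : (h0 * b) * (h0 * b) = h0 * (b * h0 * b⁻¹) := by
        calc (h0 * b) * (h0 * b) = h0 * (b * h0 * b⁻¹) * (b * b) := by group
          _ = h0 * (b * h0 * b⁻¹) := by rw [hbb, mul_one]
      have h2 : (h0 * b) * (h0 * b) = 1 := by
        apply three _ (R.mul_mem hx hx)
        rw [h1]
        exact H.mul_mem hh0 (hM.H_normalized b hbG h0 hh0)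
      have h3 : orderOf (h0 * b) ∣ 2 := orderOf_dvd_of_pow_eq_one (by rw [sq, h2])
      have h4 : orderOf (h0 * b) ∣ 3 ^ k := orderOf_dvd_of_pow_eq_one hk'
      have h5 : Nat.Coprime 2 (3 ^ k) := Nat.Coprime.pow_right k (by norm_num)
      rw [orderOf_eq_one_iff.1 (Nat.eq_one_of_dvd_coprimes h5 h3 h4)]
      exact one_mem _
    rcases h.gh_mem hb with e | e | e | e | e | e
    · exact invol (by rw [e]; simp)
    · have : h0 = 1 := three h0 (by
        have := R.mul_mem hx (R.inv_mem hsR')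
        rw [e] at this
        simpa using this) hh0
      rw [this, one_mul, e]
      exact mem_zpowers s
    · have : h0 = 1 := three h0 (by
        have := R.mul_mem hx hsR'
        rw [e] at this
        simpa using this) hh0
      rw [this, one_mul, e]
      exact inv_mem (mem_zpowers s)
    · exact invol (by rw [e]; exact h.gh_tt)
    · apply invol
      rw [e, mul_assoc, h.gh_ti', h.gh_tt, mul_one, inv_mul_cancel]
    · apply invol
      rw [e, mul_assoc, h.gh_ts', h.gh_tt, mul_one, mul_inv_cancel]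

theorem syl3 (hM : Mod r H s t) {q : MulAut W} (hq : q ∈ Gam H s t) (hq3 : q ^ 3 = 1) (hq1 : q ≠ 1) :
    ∃ g ∈ Gam H s t, q = g * s * g⁻¹ ∨ q = g * s⁻¹ * g⁻¹ := by
  have : Fact (Nat.Prime 3) := ⟨by norm_num⟩
  have hP : IsPGroup 3 (zpowers q) := by
    rintro ⟨x, hx⟩
    obtain ⟨n, rfl⟩ := mem_zpowers_iff.1 hx
    refine ⟨1, Subtype.ext ?_⟩
    show (q ^ n) ^ 3 ^ 1 = 1
    rw [pow_one, ← zpow_natCast, ← zpow_mul, mul_comm, zpow_mul, zpow_natCast, hq3, one_zpow]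
  obtain ⟨Q, hQ, hqQ⟩ := exists_isSylowIn_ge hP (by rw [zpowers_le]; exact hq)
  obtain ⟨k, hk, hkQ⟩ := (gh_sylow hM).exists_conj hQ
  have h1 : q ∈ conjS k (zpowers s) := by rw [hkQ]; exact hqQ (mem_zpowers q)
  rw [mem_conjS] at h1
  obtain ⟨n, hn⟩ := mem_zpowers_iff.1 h1
  refine ⟨k, hk, ?_⟩
  rcases gh_zpow_s hM.rel n with e | e | e
  · exfalso
    apply hq1
    rw [e] at hn
    calc q = k * (k⁻¹ * q * k) * k⁻¹ := by group
      _ = 1 := by rw [← hn]; group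
  · left
    rw [e] at hn
    rw [hn]; group
  · right
    rw [e] at hn
    rw [hn]; group

end Cfsg.Agent.Lib.Helper71.S3
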