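import Mathlib
import Cfsg.Agent.Lib.Helper71.S3.Defs

/-!
# Piece S: API of Kset Z.   W_K := fixedSub K,  e_K := normMap K  (Helper88.CoprimeAbelian).
-/

set_option autoImplicit false
set_option linter.unusedSectionVars false

namespace Cfsg.Agent.Lib.Helper71.S3

open Subgroup Cfsg.Agent.Lib.Helper22 Cfsg.Agent.Lib.Helper88

variable {W : Type*} [CommGroup W] [Finite W]

theorem fixedSub_ne_bot_iff (K : Subgroup (MulAut W)) :
    fixedSub K ≠ ⊥ ↔ ∃ u ∈ fixedSub K, u ≠ 1 := by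
  rw [Subgroup.ne_bot_iff_exists_ne_one]
  constructor
  · rintro ⟨u, hu⟩
    exact ⟨u, u.2, fun h => hu (Subtype.ext h)⟩
  · rintro ⟨u, hu, hu1⟩
    exact ⟨⟨u, hu⟩, fun h => hu1 (congrArg Subtype.val h)⟩

theorem mem_fixedSub_sup {A B : Subgroup (MulAut W)} {x : W} (hA : x ∈ fixedSub A)
    (hB : x ∈ fixedSub B) : x ∈ fixedSub (A ⊔ B) := by
  have hle : A ⊔ B ≤ MulAction.stabilizer (MulAut W) x :=
    sup_le (fun a ha => hA a ha) (fun b hb => hB b hb)
  intro α hα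
  exact hle hα

/-- (helper71's name for `mem_fixedSub_sup`) -/
theorem fixedSub_sup (K K' : Subgroup (MulAut W)) {u : W} (h : u ∈ fixedSub K)
    (h' : u ∈ fixedSub K') : u ∈ fixedSub (K ⊔ K') := mem_fixedSub_sup h h'

theorem Kset_nonempty (Z : Subgroup (MulAut W)) (hW : ∃ w : W, w ≠ 1) : (Kset Z).Nonempty := by
  obtain ⟨w, hw⟩ := hW
  let F : Set (Subgroup (MulAut W)) := {K | K ≤ Z ∧ fixedSub K ≠ ⊥}
  have hF : F.Nonempty := by
    refine ⟨⊥, bot_le, (fixedSub_ne_bot_iff _).2 ⟨w, ?_, hw⟩⟩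
    intro α hα
    rw [Subgroup.mem_bot] at hα
    rw [hα]; rfl
  obtain ⟨K, hK⟩ := (Set.toFinite F).exists_maximal hF
  refine ⟨K, hK.1.1, hK.1.2, fun K' h1 h2 h3 => ?_⟩
  exact le_antisymm (hK.2 (⟨h1, h3⟩ : K' ∈ F) h2) h2

theorem apply_mem_fixedSub_conjS (g : MulAut W) (K : Subgroup (MulAut W)) {u : W}
    (hu : u ∈ fixedSub K) : g u ∈ fixedSub (conjS g K) := by
  intro α hα
  rw [mem_conjS] at hα
  have h1 := hu _ hα
  rw [MulAut.mul_apply, MulAut.mul_apply] at h1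
  have h2 := congrArg g h1
  rwa [MulAut.apply_inv_self] at h2

theorem conjS_inv_conjS (g : MulAut W) (K : Subgroup (MulAut W)) : conjS g⁻¹ (conjS g K) = K := by
  rw [← conjS_mul, inv_mul_cancel, conjS_one]

theorem conjS_conjS_inv (g : MulAut W) (K : Subgroup (MulAut W)) : conjS g (conjS g⁻¹ K) = K := by
  rw [← conjS_mul, mul_inv_cancel, conjS_one]

theorem mem_fixedSub_conjS_iff (g : MulAut W) (K : Subgroup (MulAut W)) {u : W} :
    u ∈ fixedSub (conjS g K) ↔ g⁻¹ u ∈ fixedSub K := by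
  constructor
  · intro h
    have := apply_mem_fixedSub_conjS g⁻¹ _ h
    rwa [conjS_inv_conjS] at this
  · intro h
    have := apply_mem_fixedSub_conjS g _ h
    rwa [MulAut.apply_inv_self] at this

theorem normMap_conj (g : MulAut W) (K : Subgroup (MulAut W)) (x : W) :
    g (normMap K x) = normMap (conjS g K) (g x) := by
  let _ : Fintype K := Fintype.ofFinite K
  let _ : Fintype (conjS g K) := Fintype.ofFinite _
  rw [normMap_apply, normMap_apply, map_prod]
  let e : K ≃ conjS g K := ((MulAut.conj g).subgroupMap K).toEquiv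
  refine Fintype.prod_equiv e _ _ (fun k => ?_)
  show g ((k : MulAut W) x) = (g * (k : MulAut W) * g⁻¹) (g x)
  rw [MulAut.mul_apply, MulAut.mul_apply, MulAut.inv_apply_self]

theorem conjS_mem_Kset {Z K : Subgroup (MulAut W)} (g : MulAut W) (hg : conjS g Z = Z)
    (hK : K ∈ Kset Z) : conjS g K ∈ Kset Z := by
  obtain ⟨h1, h2, h3⟩ := hK
  have hg' : conjS g⁻¹ Z = Z := by
    conv_lhs => rw [← hg]
    exact conjS_inv_conjS g Z
  refine ⟨?_, ?_, ?_⟩
  · rw [← hg]
    exact Subgroup.map_mono h1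
  · obtain ⟨u, hu, hu1⟩ := (fixedSub_ne_bot_iff _).1 h2
    refine (fixedSub_ne_bot_iff _).2 ⟨g u, apply_mem_fixedSub_conjS g K hu, fun h => hu1 ?_⟩
    exact g.injective (h.trans (map_one g).symm)
  · intro K' hK'1 hK'2 hK'3
    have e1 : conjS g⁻¹ K' ≤ Z := by
      rw [← hg']
      exact Subgroup.map_mono hK'1
    have e2 : K ≤ conjS g⁻¹ K' := by
      rw [← conjS_inv_conjS g K]
      exact Subgroup.map_mono hK'2
    have e3 : fixedSub (conjS g⁻¹ K') ≠ ⊥ := by
      obtain ⟨u, hu, hu1⟩ := (fixedSub_ne_bot_iff _).1 hK'3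
      refine (fixedSub_ne_bot_iff _).2 ⟨g⁻¹ u, apply_mem_fixedSub_conjS g⁻¹ K' hu, fun h => hu1 ?_⟩
      exact (g⁻¹).injective (h.trans (map_one g⁻¹).symm)
    rw [← h3 _ e1 e2 e3, conjS_conjS_inv]

theorem normMap_eq_one_of_ne {Z K K' : Subgroup (MulAut W)}
    (hZc : ∀ x ∈ Z, ∀ y ∈ Z, x * y = y * x) (hK : K ∈ Kset Z) (hK' : K' ∈ Kset Z) (hne : K ≠ K')
    {u : W} (hu : u ∈ fixedSub K') : normMap K u = 1 := by
  by_contra hcon
  have h1 : normMap K u ∈ fixedSub K := normMap_mem_fixedSub K u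
  have h2 : normMap K u ∈ fixedSub K' := by
    let _ : Fintype K := Fintype.ofFinite K
    intro β hβ
    rw [normMap_apply, map_prod]
    refine Finset.prod_congr rfl fun k _ => ?_
    rw [← MulAut.mul_apply, hZc β (hK'.1 hβ) k (hK.1 k.2), MulAut.mul_apply, hu β hβ]
  have h3 : fixedSub (K ⊔ K') ≠ ⊥ :=
    (fixedSub_ne_bot_iff _).2 ⟨_, mem_fixedSub_sup h1 h2, hcon⟩
  have h4 : K ⊔ K' = K := hK.2.2 _ (sup_le hK.1 hK'.1) le_sup_left h3
  have h5 : K ⊔ K' = K' := hK'.2.2 _ (sup_le hK.1 hK'.1) le_sup_right h3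
  exact hne (h4.symm.trans h5)

theorem mem_of_fixes {Z K : Subgroup (MulAut W)} (hK : K ∈ Kset Z) {z : MulAut W} (hz : z ∈ Z)
    {u : W} (hu : u ∈ fixedSub K) (hu1 : u ≠ 1) (hzu : z u = u) : z ∈ K := by
  have h1 : u ∈ fixedSub (zpowers z) := by
    have hle : zpowers z ≤ MulAction.stabilizer (MulAut W) u := by
      rw [zpowers_le]
      exact hzu
    intro α hα
    exact hle hα
  have h2 : K ⊔ zpowers z = K :=
    hK.2.2 _ (sup_le hK.1 (by rw [zpowers_le]; exact hz)) le_sup_left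
      ((fixedSub_ne_bot_iff _).2 ⟨u, mem_fixedSub_sup hu h1, hu1⟩)
  rw [← h2]
  exact mem_sup_right (mem_zpowers z)

variable {r : ℕ} {H Z : Subgroup (MulAut W)} {s t : MulAut W}

theorem ZHyp.conjS_eq (hZ : ZHyp H Z s t) {g : MulAut W} (hg : g ∈ Gam H s t) : conjS g Z = Z := by
  apply le_antisymm
  · rintro _ ⟨z, hz, rfl⟩
    exact hZ.norm g hg z hz
  · intro z hz
    rw [mem_conjS]
    have := hZ.norm g⁻¹ (inv_mem hg) z hz
    rwa [inv_inv] at this

theorem ZHyp.conjS_mem (hZ : ZHyp H Z s t) {g : MulAut W} (hg : g ∈ Gam H s t)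
    {K : Subgroup (MulAut W)} (hK : K ∈ Kset Z) : conjS g K ∈ Kset Z :=
  conjS_mem_Kset g (hZ.conjS_eq hg) hK

theorem fixedSub_Z (hM : Mod r H s t) (hZ : ZHyp H Z s t) : fixedSub Z = ⊥ := by
  rcases hM.irr (fixedSub Z) (fun g hg u hu => by
    have := apply_mem_fixedSub_conjS g Z hu
    rwa [hZ.conjS_eq hg] at this) with h | h
  · exact h
  · exfalso
    apply hZ.ne
    rw [eq_bot_iff]
    intro z hz
    rw [Subgroup.mem_bot]
    ext w
    have : w ∈ fixedSub Z := by rw [h]; exact Subgroup.mem_top w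
    exact this z hz

/-- `|K|`-th powers are injective on `W` for `K ≤ Z` -/
theorem eq_one_of_pow_card (hZ : ZHyp H Z s t) {K : Subgroup (MulAut W)} (hK : K ≤ Z) {u : W}
    (hu : u ^ Nat.card K = 1) : u = 1 := by
  have h1 : orderOf u ∣ Nat.card K := orderOf_dvd_of_pow_eq_one hu
  have h2 : orderOf u ∣ Nat.card Z := h1.trans (Subgroup.card_dvd_of_le hK)
  have h3 : orderOf u ∣ Nat.card W := orderOf_dvd_natCard u
  have h4 : orderOf u = 1 := Nat.eq_one_of_dvd_coprimes hZ.cop h2 h3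
  exact orderOf_eq_one_iff.1 h4

theorem exists_normMap_ne_one (hZ : ZHyp H Z s t) {K : Subgroup (MulAut W)} (hK : K ∈ Kset Z) :
    ∃ u ∈ fixedSub K, normMap K u ≠ 1 := by
  obtain ⟨u, hu, hu1⟩ := (fixedSub_ne_bot_iff _).1 hK.2.1
  refine ⟨u, hu, ?_⟩
  rw [normMap_of_mem_fixedSub K hu]
  intro h
  exact hu1 (eq_one_of_pow_card hZ hK.1 h)

theorem eq_one_of_normMap (hM : Mod r H s t) (hZ : ZHyp H Z s t) {x : W}
    (hx : ∀ K ∈ Kset Z, normMap K x = 1) : x = 1 := by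
  let N : Subgroup W :=
    { carrier := {x | ∀ K ∈ Kset Z, normMap K x = 1}
      one_mem' := fun K _ => map_one _
      mul_mem' := fun {a b} ha hb K hK => by rw [map_mul, ha K hK, hb K hK, one_mul]
      inv_mem' := fun {a} ha K hK => by rw [map_inv, ha K hK, inv_one] }
  rcases hM.irr N (fun g hg u hu K hK => by
    have h1 := normMap_conj g (conjS g⁻¹ K) u
    rw [conjS_conjS_inv] at h1
    rw [← h1, hu _ (hZ.conjS_mem (inv_mem hg) hK), map_one]) with h | h
  · have : x ∈ N := hx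
    rw [h, Subgroup.mem_bot] at this
    exact this
  · exfalso
    obtain ⟨K, hK⟩ := Kset_nonempty Z hM.ntW
    obtain ⟨u, hu, hu1⟩ := (fixedSub_ne_bot_iff _).1 hK.2.1
    have h1 : u ∈ N := by rw [h]; exact Subgroup.mem_top u
    have h2 := h1 K hK
    rw [normMap_of_mem_fixedSub K hu] at h2
    exact hu1 (eq_one_of_pow_card hZ hK.1 h2)

theorem Kset_transitive (hM : Mod r H s t) (hZ : ZHyp H Z s t) {K K' : Subgroup (MulAut W)}
    (hK : K ∈ Kset Z) (hK' : K' ∈ Kset Z) : ∃ g ∈ Gam H s t, K' = conjS g K := by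
  by_contra hcon
  push Not at hcon
  let N : Subgroup W :=
    { carrier := {x | ∀ g ∈ Gam H s t, normMap (conjS g K) x = 1}
      one_mem' := fun g _ => map_one _
      mul_mem' := fun {a b} ha hb g hg => by rw [map_mul, ha g hg, hb g hg, one_mul]
      inv_mem' := fun {a} ha g hg => by rw [map_inv, ha g hg, inv_one] }
  rcases hM.irr N (fun h hh u hu g hg => by
    have h1 := normMap_conj h (conjS (h⁻¹ * g) K) u
    rw [← conjS_mul, mul_inv_cancel_left] at h1
    rw [← h1, hu _ (mul_mem (inv_mem hh) hg), map_one]) with h | h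
  · obtain ⟨u, hu, hu1⟩ := (fixedSub_ne_bot_iff _).1 hK'.2.1
    have h1 : u ∈ N := fun g hg =>
      normMap_eq_one_of_ne hZ.comm (hZ.conjS_mem hg hK) hK' (fun e => hcon g hg e.symm) hu
    rw [h, Subgroup.mem_bot] at h1
    exact hu1 h1
  · obtain ⟨u, hu, hu1⟩ := (fixedSub_ne_bot_iff _).1 hK.2.1
    have h1 : u ∈ N := by rw [h]; exact Subgroup.mem_top u
    have h2 := h1 1 (one_mem _)
    rw [conjS_one, normMap_of_mem_fixedSub K hu] at h2
    exact hu1 (eq_one_of_pow_card hZ hK.1 h2)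

end Cfsg.Agent.Lib.Helper71.S3
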