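import Mathlib
import Cfsg.Agent.Lib.Helper71.S3.Defs
import Cfsg.Agent.Lib.Helper71.S3.KsetApi

/-!
# Piece L: projecting the norm of A = {1, s, s⁻¹, t, s t s⁻¹, s⁻¹ t s} to one component
-/

set_option autoImplicit false
set_option linter.unusedSectionVars false

namespace Cfsg.Agent.Lib.Helper71.S3

open Subgroup Cfsg.Agent.Lib.Helper22 Cfsg.Agent.Lib.Helper88

section rel

variable {W : Type*} [CommGroup W] {s t : MulAut W}

theorem Rel.ap_ss (h : Rel s t) (x : W) : s (s x) = s⁻¹ x := by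
  rw [h.s_inv, sq, MulAut.mul_apply]

theorem Rel.ap_sisi (h : Rel s t) (x : W) : s⁻¹ (s⁻¹ x) = s x := by
  rw [← h.ap_ss, ← h.ap_ss]
  have h1 : s (s (s (s x))) = (s ^ 3) (s x) := by
    rw [pow_succ, pow_succ, pow_one, MulAut.mul_apply, MulAut.mul_apply]
  rw [h1, h.s3, MulAut.one_apply]

theorem Rel.ap_tt (h : Rel s t) (x : W) : t (t x) = x := by
  rw [← MulAut.mul_apply, ← sq, h.t2, MulAut.one_apply]

theorem Rel.ap_ts (h : Rel s t) (x : W) : t (s x) = s⁻¹ (t x) := by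
  have h1 : t * s = s⁻¹ * t := by rw [← h.rel]; group
  rw [← MulAut.mul_apply, h1, MulAut.mul_apply]

theorem Rel.ap_tsi (h : Rel s t) (x : W) : t (s⁻¹ x) = s (t x) := by
  have h1 := h.ap_ts (s⁻¹ x)
  rw [MulAut.apply_inv_self] at h1
  rw [h1, MulAut.apply_inv_self]

theorem Rel.ap_t1 (h : Rel s t) (x : W) : (s * t * s⁻¹) x = s⁻¹ (t x) := by
  rw [MulAut.mul_apply, MulAut.mul_apply, h.ap_tsi, h.ap_ss]

theorem Rel.ap_t2 (h : Rel s t) (x : W) : (s⁻¹ * t * s) x = s (t x) := by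
  rw [MulAut.mul_apply, MulAut.mul_apply, h.ap_ts, h.ap_sisi]

theorem Rel.t1_mul_t (h : Rel s t) : (s * t * s⁻¹) * t = s⁻¹ := by
  ext x
  rw [MulAut.mul_apply, h.ap_t1, h.ap_tt]

theorem Rel.t2_mul_t (h : Rel s t) : (s⁻¹ * t * s) * t = s := by
  ext x
  rw [MulAut.mul_apply, h.ap_t2, h.ap_tt]

theorem Rel.t2_mul_t1 (h : Rel s t) : (s⁻¹ * t * s) * (s * t * s⁻¹) = s⁻¹ := by
  ext x
  rw [MulAut.mul_apply, h.ap_t2, h.ap_t1, h.ap_tsi, h.ap_tt, h.ap_ss]

end rel

variable {W : Type*} [CommGroup W] [Finite W]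

variable {r : ℕ} {H Z : Subgroup (MulAut W)} {s t : MulAut W}

omit [Finite W] in
theorem six_prod (hM : Mod r H s t) (u : W) :
    u * s u * s⁻¹ u * t u * (s * t * s⁻¹) u * (s⁻¹ * t * s) u = 1 := by
  have h := hM.rel
  rw [h.ap_t1, h.ap_t2]
  apply hM.fixW
  · simp only [map_mul, h.ap_ss, MulAut.apply_inv_self]
    ac_rfl
  · simp only [map_mul, h.ap_ts, h.ap_tsi, h.ap_tt]
    ac_rfl

theorem comp_eq (hZ : ZHyp H Z s t) {K : Subgroup (MulAut W)} (hK : K ∈ Kset Z) {a : MulAut W}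
    (ha : a ∈ Gam H s t) {u : W} (hu : u ∈ fixedSub K) :
    (conjS a K = K → normMap K (a u) = (a u) ^ Nat.card K) ∧ (conjS a K ≠ K → normMap K (a u) = 1) := by
  have h1 := apply_mem_fixedSub_conjS a K hu
  constructor
  · intro h
    rw [h] at h1
    exact normMap_of_mem_fixedSub K h1
  · intro h
    exact normMap_eq_one_of_ne hZ.comm hK (hZ.conjS_mem ha hK) (fun e => h e.symm) h1

theorem t1_mem_Gam (H : Subgroup (MulAut W)) (s t : MulAut W) : s * t * s⁻¹ ∈ Gam H s t :=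
  mul_mem (mul_mem (s_mem_Gam H s t) (t_mem_Gam H s t)) (inv_mem (s_mem_Gam H s t))

theorem t2_mem_Gam (H : Subgroup (MulAut W)) (s t : MulAut W) : s⁻¹ * t * s ∈ Gam H s t :=
  mul_mem (mul_mem (inv_mem (s_mem_Gam H s t)) (t_mem_Gam H s t)) (s_mem_Gam H s t)

theorem conjS_inv_ne {K : Subgroup (MulAut W)} {a : MulAut W} (h : conjS a K ≠ K) :
    conjS a⁻¹ K ≠ K := by
  intro e
  apply h
  conv_lhs => rw [← e]
  exact conjS_conjS_inv a K

/-- the image of `six_prod` under `normMap K` -/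
theorem six_norm (hM : Mod r H s t) (K : Subgroup (MulAut W)) {u : W} (hu : u ∈ fixedSub K) :
    u ^ Nat.card K * normMap K (s u) * normMap K (s⁻¹ u) * normMap K (t u) *
      normMap K ((s * t * s⁻¹) u) * normMap K ((s⁻¹ * t * s) u) = 1 := by
  have h1 := congrArg (normMap K) (six_prod hM u)
  rw [map_one, map_mul, map_mul, map_mul, map_mul, map_mul, normMap_of_mem_fixedSub K hu] at h1
  exact h1

theorem L1_s_not (hM : Mod r H s t) (hZ : ZHyp H Z s t) {K : Subgroup (MulAut W)} (hK : K ∈ Kset Z)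
    (hs : conjS s K ≠ K) :
    ∃ i : ℕ, conjS (s ^ i * t * (s ^ i)⁻¹) K = K ∧ ∀ u ∈ fixedSub K, (s ^ i * t * (s ^ i)⁻¹) u = u⁻¹ := by
  have h := hM.rel
  have hs' : conjS s⁻¹ K ≠ K := conjS_inv_ne hs
  have key : ∀ u ∈ fixedSub K, u ^ Nat.card K * normMap K (t u) *
      normMap K ((s * t * s⁻¹) u) * normMap K ((s⁻¹ * t * s) u) = 1 := by
    intro u hu
    have h1 := six_norm hM K hu
    rw [(comp_eq hZ hK (s_mem_Gam H s t) hu).2 hs,
      (comp_eq hZ hK (inv_mem (s_mem_Gam H s t)) hu).2 hs', mul_one, mul_one] at h1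
    exact h1
  have fin : ∀ (a : MulAut W) (u : W), u ^ Nat.card K * (a u) ^ Nat.card K = 1 → a u = u⁻¹ := by
    intro a u hu
    rw [← mul_pow] at hu
    have := eq_one_of_pow_card hZ hK.1 hu
    exact (eq_inv_of_mul_eq_one_right this)
  by_cases h0 : conjS t K = K
  · have h1 : conjS (s * t * s⁻¹) K ≠ K := by
      intro e
      apply hs'
      rw [← h.t1_mul_t, conjS_mul, h0, e]
    have h2 : conjS (s⁻¹ * t * s) K ≠ K := by
      intro e
      apply hs
      rw [← h.t2_mul_t, conjS_mul, h0, e]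
    refine ⟨0, by simpa using h0, fun u hu => ?_⟩
    have h3 := key u hu
    rw [(comp_eq hZ hK (t_mem_Gam H s t) hu).1 h0, (comp_eq hZ hK (t1_mem_Gam H s t) hu).2 h1,
      (comp_eq hZ hK (t2_mem_Gam H s t) hu).2 h2, mul_one, mul_one] at h3
    simpa using fin t u h3
  · by_cases h1 : conjS (s * t * s⁻¹) K = K
    · have h2 : conjS (s⁻¹ * t * s) K ≠ K := by
        intro e
        apply hs'
        rw [← h.t2_mul_t1, conjS_mul, h1, e]
      refine ⟨1, by simpa using h1, fun u hu => ?_⟩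
      have h3 := key u hu
      rw [(comp_eq hZ hK (t_mem_Gam H s t) hu).2 h0, (comp_eq hZ hK (t1_mem_Gam H s t) hu).1 h1,
        (comp_eq hZ hK (t2_mem_Gam H s t) hu).2 h2, mul_one, mul_one] at h3
      simpa using fin _ u h3
    · have e2 : s ^ 2 * t * (s ^ 2)⁻¹ = s⁻¹ * t * s := by
        rw [← h.s_inv, inv_inv]
      by_cases h2 : conjS (s⁻¹ * t * s) K = K
      · refine ⟨2, by rw [e2]; exact h2, fun u hu => ?_⟩
        have h3 := key u hu
        rw [(comp_eq hZ hK (t_mem_Gam H s t) hu).2 h0, (comp_eq hZ hK (t1_mem_Gam H s t) hu).2 h1,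
          (comp_eq hZ hK (t2_mem_Gam H s t) hu).1 h2, mul_one, mul_one] at h3
        rw [e2]
        exact fin _ u h3
      · exfalso
        obtain ⟨u, hu, hu1⟩ := (fixedSub_ne_bot_iff _).1 hK.2.1
        have h3 := key u hu
        rw [(comp_eq hZ hK (t_mem_Gam H s t) hu).2 h0, (comp_eq hZ hK (t1_mem_Gam H s t) hu).2 h1,
          (comp_eq hZ hK (t2_mem_Gam H s t) hu).2 h2, mul_one, mul_one, mul_one] at h3
        exact hu1 (eq_one_of_pow_card hZ hK.1 h3)

theorem L1_s_only (hM : Mod r H s t) (hZ : ZHyp H Z s t) {K : Subgroup (MulAut W)} (hK : K ∈ Kset Z)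
    (hs : conjS s K = K) (ht : conjS t K ≠ K) : ∀ u ∈ fixedSub K, u * s u * s (s u) = 1 := by
  have h := hM.rel
  have hs' : conjS s⁻¹ K = K := by
    conv_lhs => rw [← hs]
    exact conjS_inv_conjS s K
  have h1 : conjS (s * t * s⁻¹) K ≠ K := by
    intro e
    apply ht
    rw [conjS_mul, conjS_mul, hs'] at e
    have := congrArg (conjS s⁻¹) e
    rwa [conjS_inv_conjS, hs'] at this
  have h2 : conjS (s⁻¹ * t * s) K ≠ K := by
    intro e
    apply ht
    rw [conjS_mul, conjS_mul, hs] at e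
    have := congrArg (conjS s) e
    rwa [conjS_conjS_inv, hs] at this
  intro u hu
  have h3 := six_norm hM K hu
  rw [(comp_eq hZ hK (s_mem_Gam H s t) hu).1 hs,
    (comp_eq hZ hK (inv_mem (s_mem_Gam H s t)) hu).1 hs',
    (comp_eq hZ hK (t_mem_Gam H s t) hu).2 ht, (comp_eq hZ hK (t1_mem_Gam H s t) hu).2 h1,
    (comp_eq hZ hK (t2_mem_Gam H s t) hu).2 h2, mul_one, mul_one, mul_one, ← mul_pow, ← mul_pow] at h3
  rw [h.ap_ss]
  exact eq_one_of_pow_card hZ hK.1 h3

theorem L1_both (hM : Mod r H s t) {K : Subgroup (MulAut W)}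
    (ht : conjS t K = K) (hs : ∀ u ∈ fixedSub K, s u = u) : ∀ u ∈ fixedSub K, t u = u⁻¹ := by
  have h := hM.rel
  intro u hu
  have htu : t u ∈ fixedSub K := by
    have := apply_mem_fixedSub_conjS t K hu
    rwa [ht] at this
  have hsi : ∀ v ∈ fixedSub K, s⁻¹ v = v := by
    intro v hv
    conv_lhs => rw [← hs v hv]
    exact MulAut.inv_apply_self _ s v
  have h1 := six_prod hM u
  rw [h.ap_t1, h.ap_t2, hs u hu, hsi u hu, hs _ htu, hsi _ htu] at h1
  have h2 : (u * t u) ^ 3 = 1 := by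
    rw [← h1, mul_pow, pow_succ, pow_succ, pow_one, pow_succ, pow_succ, pow_one]
    simp only [mul_assoc]
  have h3 : orderOf (u * t u) ∣ 3 := orderOf_dvd_of_pow_eq_one h2
  have h4 : orderOf (u * t u) ∣ Nat.card W := orderOf_dvd_natCard _
  have h5 : (Nat.card W).Coprime 3 := Nat.Coprime.coprime_dvd_right (by norm_num) hM.copW
  have h6 : orderOf (u * t u) = 1 := Nat.eq_one_of_dvd_coprimes h5 h4 h3
  exact eq_inv_of_mul_eq_one_right (orderOf_eq_one_iff.1 h6)

end Cfsg.Agent.Lib.Helper71.S3
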