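import Mathlib
import Cfsg.Agent.Lib.Helper71.S3.Defs
import Cfsg.Agent.Lib.Helper71.S3.KsetApi
import Cfsg.Agent.Lib.Helper71.S3.L1
import Cfsg.Agent.Lib.Helper71.S3.GamH

/-!
# S4305, piece A1: `mix` and `no_s`
-/

set_option autoImplicit false

namespace Cfsg.Agent.Lib.Helper71.S3

open Subgroup Cfsg.Agent.Lib.Helper22 Cfsg.Agent.Lib.Helper88

variable {W : Type*} [CommGroup W] [Finite W]

omit [Finite W] in
/-- if `a` inverts the subgroup `X` then so does `a⁻¹` -/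
theorem inv_inverts (X : Subgroup W) (a : MulAut W) (ha : ∀ u ∈ X, a u = u⁻¹) :
    ∀ u ∈ X, a⁻¹ u = u⁻¹ := by
  intro u hu
  have h1 : a (u⁻¹) = u := by rw [map_inv, ha u hu, inv_inv]
  conv_lhs => rw [← h1]
  exact MulAut.inv_apply_self _ a _

omit [Finite W] in
/-- if `a` fixes `u` then so does `a⁻¹` -/
theorem inv_fixes (a : MulAut W) {u : W} (ha : a u = u) : a⁻¹ u = u := by
  conv_lhs => rw [← ha]
  exact MulAut.inv_apply_self _ a _

/-- elements of order prime to 6 -/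
theorem eq_one_of_pow_three (hW : (Nat.card W).Coprime 6) {u : W} (hu : u ^ 3 = 1) : u = 1 := by
  have h2 : orderOf u ∣ 3 := orderOf_dvd_of_pow_eq_one hu
  have h3 : orderOf u ∣ Nat.card W := orderOf_dvd_natCard u
  have h1 : (Nat.card W).Coprime 3 := Nat.Coprime.coprime_dvd_right (by norm_num) hW
  exact orderOf_eq_one_iff.mp (Nat.eq_one_of_dvd_coprimes h1 h3 h2)

theorem mix (H : Subgroup (MulAut W)) (hcop : (Nat.card H).Coprime 6) (X : Subgroup W)
    (t' s' : MulAut W) (ht' : ∀ u ∈ X, t' u = u⁻¹) (hs'X : ∀ u ∈ X, s' u ∈ X) (hs'3 : s' ^ 3 = 1)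
    (hH : t' * s' * t'⁻¹ * s' ∈ H) : ∀ u ∈ X, s' u = u := by
  set h0 := t' * s' * t'⁻¹ * s' with hh0
  have hti := inv_inverts X t' ht'
  have h1 : ∀ u ∈ X, h0 u = s' (s' u) := by
    intro u hu
    show t' (s' (t'⁻¹ (s' u))) = s' (s' u)
    rw [hti _ (hs'X u hu), map_inv, map_inv, ht' _ (hs'X _ (hs'X u hu)), inv_inv]
  have h2 : ∀ k : ℕ, ∀ u ∈ X, (h0 ^ k) u = (s' ^ (2 * k)) u := by
    intro k
    induction k with
    | zero => intro u _; simp
    | succ k ih =>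
      intro u hu
      rw [pow_succ, MulAut.mul_apply, h1 u hu, ih _ (hs'X _ (hs'X u hu))]
      rw [show 2 * (k + 1) = 2 * k + 1 + 1 by ring, pow_succ, pow_succ]
      rfl
  have h3 : h0 ^ Nat.card H = 1 := by
    have := pow_card_eq_one' (G := H) (x := ⟨h0, hH⟩)
    exact congrArg Subtype.val this
  intro u hu
  have h4 := h2 (Nat.card H) u hu
  rw [h3, pow_eq_pow_mod _ hs'3] at h4
  have h5 : (Nat.card H).Coprime 3 := Nat.Coprime.coprime_dvd_right (by norm_num) hcop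
  have h6 : Nat.card H % 3 ≠ 0 := by
    intro h
    have : 3 ∣ Nat.card H := Nat.dvd_of_mod_eq_zero h
    have := Nat.Coprime.coprime_dvd_left this h5
    norm_num at this
  have h7 : 2 * Nat.card H % 3 = 1 ∨ 2 * Nat.card H % 3 = 2 := by omega
  rcases h7 with h7 | h7
  · rw [h7, pow_one] at h4
    exact h4.symm
  · rw [h7] at h4
    have h8 : s' (s' u) = u := by
      have : (s' ^ 2) u = s' (s' u) := by rw [pow_two]; rfl
      rw [← this]; exact h4.symm
    have h9 : s' (s' (s' u)) = u := by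
      have : (s' ^ 3) u = s' (s' (s' u)) := by rw [pow_succ, pow_two]; rfl
      rw [← this, hs'3]; rfl
    rw [h8] at h9
    exact h9

variable {r : ℕ} {H Z : Subgroup (MulAut W)} {s t : MulAut W}

/-- `Z` preserves each `W_K` -/
theorem Z_pres (hZ : ZHyp H Z s t) {K : Subgroup (MulAut W)} (hK : K ≤ Z) {z : MulAut W} (hz : z ∈ Z)
    {u : W} (hu : u ∈ fixedSub K) : z u ∈ fixedSub K := by
  intro α hα
  have hc : α * z = z * α := hZ.comm _ (hK hα) _ hz
  have : α (z u) = z (α u) := by rw [← MulAut.mul_apply, hc, MulAut.mul_apply]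
  rw [this, hu α hα]

/-- a normalizing element preserves `W_K` -/
theorem pres_of_conjS {K : Subgroup (MulAut W)} {a : MulAut W} (ha : conjS a K = K) {u : W}
    (hu : u ∈ fixedSub K) : a u ∈ fixedSub K := by
  have := apply_mem_fixedSub_conjS a K hu
  rwa [ha] at this

theorem Rel.conj_comm {Γ : Type*} [Group Γ] {s t : Γ} (h : Rel s t) {c : Γ} (hc : s * c = c * s) :
    s * (t * c * t⁻¹) = (t * c * t⁻¹) * s := by
  have e1 : t⁻¹ * s * t = s⁻¹ := by
    have := h.rel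
    rw [h.t_inv] at this ⊢
    exact this
  have hc' : s⁻¹ * c = c * s⁻¹ := by
    calc s⁻¹ * c = s⁻¹ * (c * s) * s⁻¹ := by group
      _ = s⁻¹ * (s * c) * s⁻¹ := by rw [hc]
      _ = c * s⁻¹ := by group
  calc s * (t * c * t⁻¹) = t * ((t⁻¹ * s * t) * c) * t⁻¹ := by group
    _ = t * (c * (t⁻¹ * s * t)) * t⁻¹ := by rw [e1, hc']
    _ = (t * c * t⁻¹) * s := by group

/-- if `s` is trivial and `t` is inversion on `W_K ≠ 1` we get a contradiction -/
theorem false_of_scalar (hM : Mod r H s t) (hZ : ZHyp H Z s t) {K : Subgroup (MulAut W)}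
    (hK : K ∈ Kset Z) (hs : ∀ u ∈ fixedSub K, s u = u) (ht : ∀ u ∈ fixedSub K, t u = u⁻¹) : False := by
  obtain ⟨x, hx⟩ := Subgroup.ne_bot_iff_exists_ne_one.mp hK.2.1
  obtain ⟨u, hu, hu1⟩ : ∃ u ∈ fixedSub K, u ≠ 1 := ⟨(x : W), x.2, fun h => hx (Subtype.ext h)⟩
  have hsG := s_mem_Gam H s t
  have htG := t_mem_Gam H s t
  have hti := inv_inverts _ t ht
  have act_s : ∀ z ∈ Z, ∀ v ∈ fixedSub K, (s * z * s⁻¹) v = z v := by
    intro z hz v hv
    show s (z (s⁻¹ v)) = z v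
    rw [inv_fixes s (hs v hv), hs _ (Z_pres hZ hK.1 hz hv)]
  have act_s' : ∀ z ∈ Z, ∀ v ∈ fixedSub K, (s⁻¹ * z * s) v = z v := by
    intro z hz v hv
    show s⁻¹ (z (s v)) = z v
    rw [hs v hv, inv_fixes s (hs _ (Z_pres hZ hK.1 hz hv))]
  have act_t : ∀ z ∈ Z, ∀ v ∈ fixedSub K, (t * z * t⁻¹) v = z v := by
    intro z hz v hv
    show t (z (t⁻¹ v)) = z v
    rw [hti v hv, map_inv, map_inv, ht _ (Z_pres hZ hK.1 hz hv), inv_inv]
  have hall : ∀ z ∈ Z, z ∈ K := by
    intro z hz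
    have hz1 : s * z * s⁻¹ ∈ Z := hZ.norm s hsG z hz
    have hz2 : s⁻¹ * z * s ∈ Z := by
      have := hZ.norm s⁻¹ (inv_mem hsG) z hz
      rwa [inv_inv] at this
    set n := z * (s * z * s⁻¹) * (s⁻¹ * z * s) with hn
    have hnZ : n ∈ Z := mul_mem (mul_mem hz hz1) hz2
    have hns : s * n = n * s := by
      have e1 : s * n * s⁻¹ = (s * z * s⁻¹) * (s⁻¹ * z * s) * z := by
        have e2 : s * (s * z * s⁻¹) * s⁻¹ = s⁻¹ * z * s := by
          have h3 : s * s = s⁻¹ := by rw [hM.rel.s_inv, pow_two]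
          have h4 : s⁻¹ * s⁻¹ = s := by
            rw [← mul_inv_rev, h3, inv_inv]
          calc s * (s * z * s⁻¹) * s⁻¹ = (s * s) * z * (s⁻¹ * s⁻¹) := by group
            _ = s⁻¹ * z * s := by rw [h3, h4]
        calc s * n * s⁻¹ = (s * z * s⁻¹) * (s * (s * z * s⁻¹) * s⁻¹) * (s * (s⁻¹ * z * s) * s⁻¹) := by
              rw [hn]; group
          _ = (s * z * s⁻¹) * (s⁻¹ * z * s) * z := by rw [e2]; group
      have e3 : (s * z * s⁻¹) * (s⁻¹ * z * s) * z = n := by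
        rw [hn, hZ.comm _ (mul_mem hz1 hz2) _ hz]; group
      calc s * n = s * n * s⁻¹ * s := by group
        _ = n * s := by rw [e1, e3]
    have hn' : t * n * t⁻¹ ∈ Z := hZ.norm t htG n hnZ
    set m := n * (t * n * t⁻¹) with hm
    have hmZ : m ∈ Z := mul_mem hnZ hn'
    have hms : s * m = m * s := by
      have e := hM.rel.conj_comm hns
      calc s * m = (s * n) * (t * n * t⁻¹) := by rw [hm]; group
        _ = n * (s * (t * n * t⁻¹)) := by rw [hns]; group
        _ = m * s := by rw [e, hm]; group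
    have hmt : t * m = m * t := by
      have e1 : t * m * t⁻¹ = (t * n * t⁻¹) * n := by
        have h3 : t * t = 1 := by rw [← pow_two, hM.rel.t2]
        have h4 : t⁻¹ * t⁻¹ = 1 := by rw [← mul_inv_rev, h3, inv_one]
        calc t * m * t⁻¹ = (t * n * t⁻¹) * ((t * t) * n * (t⁻¹ * t⁻¹)) := by rw [hm]; group
          _ = (t * n * t⁻¹) * n := by rw [h3, h4]; group
      calc t * m = t * m * t⁻¹ * t := by group
        _ = m * t := by rw [e1, hZ.comm _ hn' _ hnZ]
    have hm1 : m = 1 := hM.fixH m (hZ.le hmZ) hms hmt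
    have hnv : ∀ v ∈ fixedSub K, n v = z (z (z v)) := by
      intro v hv
      show z ((s * z * s⁻¹) ((s⁻¹ * z * s) v)) = _
      rw [act_s' z hz v hv, act_s z hz _ (Z_pres hZ hK.1 hz hv)]
    have hmu : m u = z (z (z (z (z (z u))))) := by
      show n ((t * n * t⁻¹) u) = _
      rw [act_t n hnZ u hu, hnv u hu, hnv _ (Z_pres hZ hK.1 hz (Z_pres hZ hK.1 hz (Z_pres hZ hK.1 hz hu)))]
    have h6 : (z ^ 6) u = u := by
      have : (z ^ 6) u = z (z (z (z (z (z u))))) := by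
        simp only [pow_succ, pow_zero, one_mul, MulAut.mul_apply]
      rw [this, ← hmu, hm1]; rfl
    have h6K : z ^ 6 ∈ K := mem_of_fixes hK (pow_mem hz 6) hu hu1 h6
    have hcop : Nat.Coprime 6 (orderOf z) := by
      have h1 : orderOf z ∣ Nat.card H := by
        have := orderOf_dvd_natCard (⟨z, hZ.le hz⟩ : H)
        rwa [Subgroup.orderOf_mk] at this
      exact (Nat.Coprime.coprime_dvd_left h1 hM.copH).symm
    obtain ⟨k, hk⟩ := exists_pow_eq_self_of_coprime hcop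
    rw [← hk]
    exact pow_mem h6K k
  have : u ∈ fixedSub Z := fun z hz => hu z (hall z hz)
  rw [fixedSub_Z hM hZ, mem_bot] at this
  exact hu1 this

theorem no_s (hM : Mod r H s t) (hZ : ZHyp H Z s t) {K₁ : Subgroup (MulAut W)} (hK₁ : K₁ ∈ Kset Z)
    (i : ℕ) (hinv : ∀ u ∈ fixedSub K₁, (s ^ i * t * (s ^ i)⁻¹) u = u⁻¹)
    {K : Subgroup (MulAut W)} (hK : K ∈ Kset Z) (hsK : conjS s K = K) : False := by
  obtain ⟨x, hx, rfl⟩ := Kset_transitive hM hZ hK₁ hK
  set s' := x⁻¹ * s * x with hs'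
  have hs'X : ∀ u ∈ fixedSub K₁, s' u ∈ fixedSub K₁ := by
    intro u hu
    have h1 := apply_mem_fixedSub_conjS x K₁ hu
    have h2 := pres_of_conjS hsK h1
    exact (mem_fixedSub_conjS_iff x K₁).mp h2
  have hs'3 : s' ^ 3 = 1 := by
    have : s' = x⁻¹ * s * (x⁻¹)⁻¹ := by rw [inv_inv]
    rw [this, conj_pow, hM.rel.s3]; group
  have hy : s' * s⁻¹ ∈ H ∨ s' * s ∈ H := by
    have := conj_s hM (inv_mem hx)
    rwa [inv_inv] at this
  have hmix := mix H hM.copH (fixedSub K₁) _ s' hinv hs'X hs'3 (inv_mod_H hM hy i)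
  have hstriv : ∀ u ∈ fixedSub (conjS x K₁), s u = u := by
    intro u hu
    have h1 := (mem_fixedSub_conjS_iff x K₁).mp hu
    have h2 := hmix _ h1
    have h3 : x⁻¹ (s (x (x⁻¹ u))) = x⁻¹ u := h2
    rw [MulAut.apply_inv_self] at h3
    exact (x⁻¹).injective h3
  by_cases ht : conjS t (conjS x K₁) = conjS x K₁
  · exact false_of_scalar hM hZ hK hstriv (L1_both hM ht hstriv)
  · obtain ⟨y, hy⟩ := Subgroup.ne_bot_iff_exists_ne_one.mp hK.2.1
    apply hy
    apply Subtype.ext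
    have h1 := L1_s_only hM hZ hK hsK ht y y.2
    rw [hstriv y y.2, hstriv y y.2] at h1
    apply eq_one_of_pow_three hM.copW
    rw [← h1, pow_succ, pow_two]

end Cfsg.Agent.Lib.Helper71.S3
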