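import Mathlib
import Cfsg.Agent.Lib.Helper71.S3.Defs
import Cfsg.Agent.Lib.Helper71.S3.KsetApi
import Cfsg.Agent.Lib.Helper71.S3.L1
import Cfsg.Agent.Lib.Helper71.S3.GamH
import Cfsg.Agent.Lib.Helper71.S3.NoS

/-!
# Piece A2: case (a) of the dichotomy
-/

set_option autoImplicit false

namespace Cfsg.Agent.Lib.Helper71.S3

open Subgroup Cfsg.Agent.Lib.Helper22 Cfsg.Agent.Lib.Helper88

theorem mem_of_pow_three {Γ : Type*} [Group Γ] [Finite Γ] (H : Subgroup Γ) {x : Γ}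
    (hx : x ^ 3 ∈ H) (h3 : ¬ 3 ∣ orderOf x) : x ∈ H := by
  have hc : (orderOf x).Coprime 3 :=
    ((Nat.Prime.coprime_iff_not_dvd Nat.prime_three).mpr h3).symm
  have ho : orderOf (x ^ 3) = orderOf x := hc.orderOf_pow
  have hle : zpowers (x ^ 3) ≤ zpowers x := zpowers_le.mpr (pow_mem (mem_zpowers x) 3)
  have heq : zpowers (x ^ 3) = zpowers x :=
    Subgroup.eq_of_le_of_card_ge hle (by rw [Nat.card_zpowers, Nat.card_zpowers, ho])
  have : x ∈ zpowers (x ^ 3) := heq ▸ mem_zpowers x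
  exact (zpowers_le.mpr hx) this

theorem conjS_pow_eq {Γ : Type*} [Group Γ] {p : Γ} {K : Subgroup Γ} (h : conjS p K = K) (k : ℕ) :
    conjS (p ^ k) K = K := by
  induction k with
  | zero => rw [pow_zero, conjS_one]
  | succ k ih => rw [pow_succ, conjS_mul, h, ih]

variable {W : Type*} [CommGroup W] [Finite W]

variable {r : ℕ} {H Z : Subgroup (MulAut W)} {s t : MulAut W}

/-- an element `h₁ ε h` (`ε = s^{±1}`) normalizing `K` yields an element of order 3 normalizing `K` -/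
theorem exists_order_three (hM : Mod r H s t) {ε h₁ h : MulAut W} (hε : ε ∈ Gam H s t)
    (hε3 : ε * ε * ε = 1) (hεH : ε ∉ H) (hh₁ : h₁ ∈ H) (hh : h ∈ H) {K : Subgroup (MulAut W)}
    (hK : conjS (h₁ * ε * h) K = K) :
    ∃ q ∈ Gam H s t, q ^ 3 = 1 ∧ q ≠ 1 ∧ conjS q K = K := by
  set p := h₁ * ε * h with hp
  have hpG : p ∈ Gam H s t :=
    mul_mem (mul_mem (H_le_Gam H s t hh₁) hε) (H_le_Gam H s t hh)
  have hp3 : p ^ 3 ∈ H := by
    have e1 : p ^ 3 = h₁ * (ε * (h * h₁) * ε⁻¹) * (ε * (ε * (h * h₁) * ε⁻¹) * ε⁻¹) * (ε * ε * ε) * h := by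
      rw [hp]
      simp only [pow_succ, pow_zero, one_mul]
      group
    rw [e1, hε3, mul_one]
    have h1 : ε * (h * h₁) * ε⁻¹ ∈ H := hM.H_normalized ε hε _ (mul_mem hh hh₁)
    have h2 : ε * (ε * (h * h₁) * ε⁻¹) * ε⁻¹ ∈ H := hM.H_normalized ε hε _ h1
    exact mul_mem (mul_mem (mul_mem hh₁ h1) h2) hh
  have h3 : 3 ∣ orderOf p := by
    by_contra hnd
    have hpH : p ∈ H := mem_of_pow_three H hp3 hnd
    apply hεH
    have : ε = h₁⁻¹ * p * h⁻¹ := by rw [hp]; group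
    rw [this]
    exact mul_mem (mul_mem (inv_mem hh₁) hpH) (inv_mem hh)
  have ho : orderOf (p ^ (orderOf p / 3)) = 3 :=
    orderOf_pow_orderOf_div (orderOf_pos p).ne' h3
  refine ⟨p ^ (orderOf p / 3), pow_mem hpG _, ?_, ?_, conjS_pow_eq hK _⟩
  · have := pow_orderOf_eq_one (p ^ (orderOf p / 3))
    rwa [ho] at this
  · intro h1
    rw [h1, orderOf_one] at ho
    norm_num at ho

theorem caseA (hM : Mod r H s t) (hZ : ZHyp H Z s t) {K₁ : Subgroup (MulAut W)} (hK₁ : K₁ ∈ Kset Z)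
    (hs : conjS s K₁ ≠ K₁) :
    ∃ U : Subgroup W, U ≠ ⊥ ∧ (∀ h ∈ H, ∀ u ∈ U, h u ∈ U) ∧ ∀ u ∈ U, t u = u⁻¹ := by
  classical
  have hR := hM.rel
  obtain ⟨i, hi1, hi2⟩ := L1_s_not hM hZ hK₁ hs
  have star : ∀ K ∈ Kset Z, conjS s K ≠ K := fun K hK h => no_s hM hZ hK₁ i hi2 hK h
  have star' : ∀ g ∈ Gam H s t, ∀ K ∈ Kset Z,
      conjS (g * s * g⁻¹) K ≠ K ∧ conjS (g * s⁻¹ * g⁻¹) K ≠ K := by
    intro g hg K hK
    have hK' := hZ.conjS_mem (inv_mem hg) hK
    constructor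
    · intro h
      apply star _ hK'
      calc conjS s (conjS g⁻¹ K) = conjS (s * g⁻¹) K := (conjS_mul _ _ _).symm
        _ = conjS (g⁻¹ * (g * s * g⁻¹)) K := by congr 1; group
        _ = conjS g⁻¹ (conjS (g * s * g⁻¹) K) := conjS_mul _ _ _
        _ = conjS g⁻¹ K := by rw [h]
    · intro h
      apply star _ hK'
      have h1 : conjS s⁻¹ (conjS g⁻¹ K) = conjS g⁻¹ K := by
        calc conjS s⁻¹ (conjS g⁻¹ K) = conjS (s⁻¹ * g⁻¹) K := (conjS_mul _ _ _).symm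
          _ = conjS (g⁻¹ * (g * s⁻¹ * g⁻¹)) K := by congr 1; group
          _ = conjS g⁻¹ (conjS (g * s⁻¹ * g⁻¹) K) := conjS_mul _ _ _
          _ = conjS g⁻¹ K := by rw [h]
      conv_lhs => rw [← h1]
      exact conjS_conjS_inv s _
  have hs1 : s ≠ 1 := by
    rintro rfl
    exact hs (conjS_one _)
  have hsH : s ∉ H := by
    intro h
    exact hs1 (gh_eq_one_of_three hM h (k := 1) (by rw [pow_one]; exact hR.s3))
  have hsiH : s⁻¹ ∉ H := fun h => hsH (by simpa using inv_mem h)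
  have hsG := s_mem_Gam H s t
  have htG := t_mem_Gam H s t
  have hs3 : s * s * s = 1 := by
    rw [← hR.s3]; simp [pow_succ]
  have hsi3 : s⁻¹ * s⁻¹ * s⁻¹ = 1 := by
    have : s⁻¹ * s⁻¹ * s⁻¹ = (s * s * s)⁻¹ := by group
    rw [this, hs3, inv_one]
  -- the family
  let 𝒦 : Set (Subgroup (MulAut W)) :=
    {K | K ∈ Kset Z ∧ conjS t K = K ∧ ∀ u ∈ fixedSub K, t u = u⁻¹}
  -- K0
  have hsiG : (s ^ i)⁻¹ ∈ Gam H s t := inv_mem (pow_mem hsG i)
  have hK0 : conjS (s ^ i)⁻¹ K₁ ∈ 𝒦 := by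
    refine ⟨hZ.conjS_mem hsiG hK₁, ?_, ?_⟩
    · calc conjS t (conjS (s ^ i)⁻¹ K₁) = conjS (t * (s ^ i)⁻¹) K₁ := (conjS_mul _ _ _).symm
        _ = conjS ((s ^ i)⁻¹ * (s ^ i * t * (s ^ i)⁻¹)) K₁ := by congr 1; group
        _ = conjS (s ^ i)⁻¹ (conjS (s ^ i * t * (s ^ i)⁻¹) K₁) := conjS_mul _ _ _
        _ = conjS (s ^ i)⁻¹ K₁ := by rw [hi1]
    · intro u hu
      rw [mem_fixedSub_conjS_iff, inv_inv] at hu
      have h1 := hi2 _ hu
      simp only [MulAut.mul_apply, MulAut.inv_apply_self] at h1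
      rw [← map_inv] at h1
      exact (s ^ i).injective h1
  have hstep : ∀ K ∈ 𝒦, ∀ h ∈ H, conjS h K ∈ 𝒦 := by
    rintro K ⟨hK, htK, hinvK⟩ h hh
    have hK' : conjS h K ∈ Kset Z := hZ.conjS_mem (H_le_Gam H s t hh) hK
    obtain ⟨j, hj1, hj2⟩ := L1_s_not hM hZ hK' (star _ hK')
    set tj := s ^ j * t * (s ^ j)⁻¹ with htj
    by_cases htt : tj = t
    · rw [htt] at hj1 hj2
      exact ⟨hK', hj1, hj2⟩
    · exfalso
      -- t * tj = s or s⁻¹
      have hε : t * tj = s ∨ t * tj = s⁻¹ := by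
        have hz := gh_zpow_s hR (j : ℤ)
        rw [zpow_natCast] at hz
        rcases hz with hz | hz | hz
        · exfalso; apply htt; rw [htj, hz]; simp
        · left
          rw [htj, hz]
          have h1 := hR.t1_mul_t
          have h2 : t * (s * t * s⁻¹) = ((s * t * s⁻¹) * t)⁻¹ := by
            rw [mul_inv_rev, mul_inv_rev, mul_inv_rev, inv_inv, hR.t_inv]
            group
          rw [h2, h1, inv_inv]
        · right
          rw [htj, hz, inv_inv]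
          have h1 := hR.t2_mul_t
          have h2 : t * (s⁻¹ * t * s) = ((s⁻¹ * t * s) * t)⁻¹ := by
            rw [mul_inv_rev, mul_inv_rev, mul_inv_rev, inv_inv, hR.t_inv]
            group
          rw [h2, h1]
      have hpK : conjS (t * (h⁻¹ * tj * h)) K = K := by
        calc conjS (t * (h⁻¹ * tj * h)) K = conjS t (conjS h⁻¹ (conjS tj (conjS h K))) := by
              rw [← conjS_mul, ← conjS_mul, ← conjS_mul]; congr 1
          _ = conjS t (conjS h⁻¹ (conjS h K)) := by rw [hj1]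
          _ = conjS t K := by rw [conjS_inv_conjS]
          _ = K := htK
      have hh₁ : t * h⁻¹ * t⁻¹ ∈ H := hM.tH _ (inv_mem hh)
      have hform : t * (h⁻¹ * tj * h) = (t * h⁻¹ * t⁻¹) * (t * tj) * h := by group
      rw [hform] at hpK
      have hq : ∃ q ∈ Gam H s t, q ^ 3 = 1 ∧ q ≠ 1 ∧ conjS q K = K := by
        rcases hε with he | he
        · rw [he] at hpK
          exact exists_order_three hM hsG hs3 hsH hh₁ hh hpK
        · rw [he] at hpK
          exact exists_order_three hM (inv_mem hsG) hsi3 hsiH hh₁ hh hpK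
      obtain ⟨q, hqG, hq3, hq1, hqK⟩ := hq
      obtain ⟨g, hg, hgq | hgq⟩ := syl3 hM hqG hq3 hq1
      · exact (star' g hg K hK).1 (hgq ▸ hqK)
      · exact (star' g hg K hK).2 (hgq ▸ hqK)
  refine ⟨⨆ K ∈ 𝒦, fixedSub K, ?_, ?_, ?_⟩
  · intro hbot
    have hle : fixedSub (conjS (s ^ i)⁻¹ K₁) ≤ ⨆ K ∈ 𝒦, fixedSub K :=
      le_iSup₂_of_le _ hK0 le_rfl
    rw [hbot, le_bot_iff] at hle
    exact hK0.1.2.1 hle
  · intro h hh
    have hle : (⨆ K ∈ 𝒦, fixedSub K) ≤ (⨆ K ∈ 𝒦, fixedSub K).comap h.toMonoidHom := by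
      refine iSup₂_le (fun K hK u hu => ?_)
      rw [mem_comap]
      have h1 : h u ∈ fixedSub (conjS h K) := apply_mem_fixedSub_conjS h K hu
      exact (le_iSup₂_of_le (f := fun K (_ : K ∈ 𝒦) => fixedSub K) _ (hstep K hK h hh) le_rfl) h1
    intro u hu
    exact hle hu
  · let I : Subgroup W :=
      { carrier := {u | t u = u⁻¹}
        one_mem' := by simp
        mul_mem' := fun {a b} ha hb => by
          show t (a * b) = (a * b)⁻¹
          rw [map_mul, ha, hb, mul_inv]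
        inv_mem' := fun {a} ha => by
          show t a⁻¹ = a⁻¹⁻¹
          rw [map_inv, ha] }
    have hle : (⨆ K ∈ 𝒦, fixedSub K) ≤ I := iSup₂_le (fun K hK u hu => hK.2.2 u hu)
    intro u hu
    exact hle hu

end Cfsg.Agent.Lib.Helper71.S3
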