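import Mathlib
import Cfsg.Agent.Lib.Helper71.S3.Defs

/-!
# Piece N: the norm identity
-/

set_option autoImplicit false

namespace Cfsg.Agent.Lib.Helper71.S3

open Subgroup Cfsg.Agent.Lib.Helper22 Cfsg.Agent.Lib.Helper88

variable {W : Type*} [CommGroup W] [Finite W]

theorem normId (Y B : Subgroup (MulAut W)) (hYc : ∀ x ∈ Y, ∀ y ∈ Y, x * y = y * x)
    (hBY : ∀ b ∈ B, ∀ y ∈ Y, b * y * b⁻¹ ∈ Y) (hcop : (Nat.card Y).Coprime (Nat.card W))
    (U : Subgroup W) (hYU : ∀ y ∈ Y, ∀ u ∈ U, y u ∈ U) (hBU : ∀ b ∈ B, ∀ u ∈ U, b u ∈ U)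
    (hfix : ∀ u ∈ U, (∀ b ∈ B, b u = u) → u = 1)
    (hfree : ∀ b ∈ B, b ≠ 1 → ∀ u ∈ U, (∀ y ∈ Y, (y⁻¹ * (b * y * b⁻¹)) u = u) → u = 1) :
    U = ⊥ := by
  classical
  let _ : Fintype Y := Fintype.ofFinite Y
  let _ : Fintype B := Fintype.ofFinite B
  rw [eq_bot_iff]
  intro u hu
  rw [Subgroup.mem_bot]
  -- step 1
  have h1 : ∀ y : Y, ∏ b : B, ((y : MulAut W)⁻¹ * ((b : MulAut W) * y * (b : MulAut W)⁻¹)) ((b : MulAut W) u) = 1 := by
    intro y
    have h2 : ∏ b : B, (b : MulAut W) ((y : MulAut W) u) = 1 := by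
      apply hfix
      · exact Subgroup.prod_mem _ fun b _ => hBU b b.2 _ (hYU y y.2 u hu)
      · intro β hβ
        rw [map_prod]
        exact Fintype.prod_equiv (Equiv.mulLeft (⟨β, hβ⟩ : B)) _ _ (fun α => rfl)
    have h3 := congrArg (fun w => ((y : MulAut W)⁻¹ : MulAut W) w) h2
    rw [map_one, map_prod] at h3
    rw [← h3]
    refine Finset.prod_congr rfl fun b _ => ?_
    simp only [MulAut.mul_apply, MulAut.inv_apply_self]
  -- step 2 : swap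
  have h2 : ∏ b : B, ∏ y : Y, ((y : MulAut W)⁻¹ * ((b : MulAut W) * y * (b : MulAut W)⁻¹)) ((b : MulAut W) u) = 1 := by
    rw [Finset.prod_comm]
    exact Finset.prod_eq_one fun y _ => h1 y
  have h3 : ∀ b : B, b ≠ 1 →
      ∏ y : Y, ((y : MulAut W)⁻¹ * ((b : MulAut W) * y * (b : MulAut W)⁻¹)) ((b : MulAut W) u) = 1 := by
    intro b hb
    apply hfree b b.2 (fun h => hb (Subtype.ext h))
    · refine Subgroup.prod_mem _ fun y _ => hYU _ ?_ _ (hBU b b.2 u hu)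
      exact Y.mul_mem (Y.inv_mem y.2) (hBY b b.2 y y.2)
    · intro y0 hy0
      rw [map_prod]
      refine Fintype.prod_equiv (Equiv.mulLeft (⟨y0, hy0⟩ : Y)) _ _ (fun y => ?_)
      rw [← MulAut.mul_apply]
      congr 1
      show y0⁻¹ * ((b : MulAut W) * y0 * (b : MulAut W)⁻¹) *
          ((y : MulAut W)⁻¹ * ((b : MulAut W) * y * (b : MulAut W)⁻¹))
        = (y0 * (y : MulAut W))⁻¹ * ((b : MulAut W) * (y0 * y) * (b : MulAut W)⁻¹)
      have e1 : ((b : MulAut W) * y0 * (b : MulAut W)⁻¹) * (y : MulAut W)⁻¹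
          = (y : MulAut W)⁻¹ * ((b : MulAut W) * y0 * (b : MulAut W)⁻¹) :=
        hYc _ (hBY b b.2 y0 hy0) _ (Y.inv_mem y.2)
      have e2 : y0⁻¹ * (y : MulAut W)⁻¹ = (y : MulAut W)⁻¹ * y0⁻¹ :=
        hYc _ (Y.inv_mem hy0) _ (Y.inv_mem y.2)
      calc y0⁻¹ * ((b : MulAut W) * y0 * (b : MulAut W)⁻¹) *
          ((y : MulAut W)⁻¹ * ((b : MulAut W) * y * (b : MulAut W)⁻¹))
          = y0⁻¹ * (((b : MulAut W) * y0 * (b : MulAut W)⁻¹) * (y : MulAut W)⁻¹) *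
            ((b : MulAut W) * y * (b : MulAut W)⁻¹) := by group
        _ = (y0⁻¹ * (y : MulAut W)⁻¹) * ((b : MulAut W) * y0 * (b : MulAut W)⁻¹) *
            ((b : MulAut W) * y * (b : MulAut W)⁻¹) := by rw [e1]; group
        _ = (y0 * (y : MulAut W))⁻¹ * ((b : MulAut W) * (y0 * y) * (b : MulAut W)⁻¹) := by
            rw [e2]; group
  rw [Finset.prod_eq_single (1 : B) (fun b _ hb => h3 b hb) (fun h => absurd (Finset.mem_univ _) h)] at h2
  have h4 : u ^ Nat.card Y = 1 := by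
    rw [← h2, Nat.card_eq_fintype_card, ← Finset.card_univ, ← Finset.prod_const]
    refine Finset.prod_congr rfl fun y _ => ?_
    simp
  have h5 : orderOf u ∣ Nat.card Y := orderOf_dvd_of_pow_eq_one h4
  have h6 : orderOf u ∣ Nat.card W := orderOf_dvd_natCard u
  exact orderOf_eq_one_iff.1 (Nat.eq_one_of_dvd_coprimes hcop h5 h6)

end Cfsg.Agent.Lib.Helper71.S3
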