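import Mathlib
import Cfsg.Agent.Lib.Helper71.S3.Defs
import Cfsg.Agent.Lib.Helper71.S3.KsetApi
import Cfsg.Agent.Lib.Helper71.S3.L1
import Cfsg.Agent.Lib.Helper71.S3.NormId
import Cfsg.Agent.Lib.Helper71.S3.GamH

/-!
# Piece B: case (b) of the dichotomy
-/

set_option autoImplicit false

namespace Cfsg.Agent.Lib.Helper71.S3

open Subgroup Cfsg.Agent.Lib.Helper22 Cfsg.Agent.Lib.Helper88

theorem mem_of_pow_mem_cop {Γ : Type*} [Group Γ] {K : Subgroup Γ} {x : Γ} {m : ℕ}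
    (hcop : m.Coprime (orderOf x)) (h : x ^ m ∈ K) : x ∈ K := by
  obtain ⟨k, hk⟩ := exists_pow_eq_self_of_coprime hcop
  rw [← hk]
  exact pow_mem h k

theorem mem_normalizer_of_conjS_eq {Γ : Type*} [Group Γ] {K : Subgroup Γ} {g : Γ}
    (h : conjS g K = K) : g ∈ normalizer (K : Set Γ) := by
  rw [mem_normalizer_iff]
  intro x
  constructor
  · intro hx
    have := conjS_mem (g := g) hx
    rwa [h] at this
  · intro hx
    rw [← h, mem_conjS] at hx
    simpa [mul_assoc] using hx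

variable {W : Type*} [CommGroup W] [Finite W]

variable {r : ℕ} {H Z : Subgroup (MulAut W)} {s t : MulAut W}

omit [Finite W] in
theorem Mod.eq_one_of_pow_three (hM : Mod r H s t) {x : W} (h : x ^ 3 = 1) : x = 1 := by
  have h1 : orderOf x ∣ 3 := orderOf_dvd_of_pow_eq_one h
  have h2 : orderOf x ∣ Nat.card W := orderOf_dvd_natCard x
  have h3 : (Nat.card W).Coprime 3 := hM.copW.coprime_dvd_right (by norm_num)
  exact orderOf_eq_one_iff.1 (Nat.eq_one_of_dvd_coprimes h3 h2 h1)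

omit [Finite W] in
theorem Mod.cop_orderOf (hM : Mod r H s t) {c : MulAut W} (hc : c ∈ H) {m : ℕ} (hm : m ∣ 6) :
    m.Coprime (orderOf c) :=
  ((hM.copH.coprime_dvd_left (Subgroup.orderOf_dvd_natCard H hc)).coprime_dvd_right hm).symm

omit [Finite W] in
/-- an `s`-fixed vector is inverted by `t`. -/
theorem Mod.t_inv_of_s_fix (hM : Mod r H s t) {v : W} (hv : s v = v) : t v = v⁻¹ := by
  have h6 := six_prod hM v
  have hsi : s⁻¹ v = v := by
    conv_lhs => rw [← hv]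
    exact MulAut.inv_apply_self _ s v
  have hst : s (t v) = t v := by rw [← hM.rel.ap_tsi, hsi]
  have hsit : s⁻¹ (t v) = t v := by
    conv_lhs => rw [← hst]
    exact MulAut.inv_apply_self _ s _
  rw [hv, hsi, hM.rel.ap_t1, hM.rel.ap_t2, hst, hsit] at h6
  have h3 : (v * t v) ^ 3 = 1 := by
    rw [← h6]
    simp only [pow_succ, pow_zero, one_mul]
    ac_rfl
  exact (eq_inv_of_mul_eq_one_right (hM.eq_one_of_pow_three h3))

theorem caseB_claim (hM : Mod r H s t) (hZ : ZHyp H Z s t) (hall : ∀ K ∈ Kset Z, conjS s K = K)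
    {K : Subgroup (MulAut W)} (hK : K ∈ Kset Z) {u : W} (hu : u ∈ fixedSub K) (hsu : s u = u) :
    u = 1 := by
  have hsK := hall K hK
  by_cases htK : conjS t K = K
  swap
  · have h1 := L1_s_only hM hZ hK hsK htK u hu
    rw [hsu, hsu] at h1
    exact hM.eq_one_of_pow_three (by rw [← h1]; simp only [pow_succ, pow_zero, one_mul])
  by_contra hu1
  have hKZ : K ≤ Z := hK.1
  -- `(+)`
  have hplus : ∀ c ∈ Z, s * c = c * s → c ∈ K := by
    intro c hc hsc
    have he : t * c * t⁻¹ ∈ Z := hZ.norm t (t_mem_Gam H s t) c hc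
    have hd1 : c * (t * c * t⁻¹) = 1 := by
      apply hM.fixH _ (hZ.le (mul_mem hc he))
      · have hs' : s = t * s⁻¹ * t⁻¹ := by
          have := congrArg (·⁻¹) hM.rel.rel
          simp only [mul_inv_rev, inv_inv] at this
          rw [mul_assoc]; exact this.symm
        have c1 : Commute s c := hsc
        have c2 : Commute (t * s⁻¹ * t⁻¹) (t * c * t⁻¹) := (Commute.conj_iff t).2 c1.inv_left
        rw [← hs'] at c2
        exact (c1.mul_right c2)
      · have h1 : t * (t * c * t⁻¹) * t⁻¹ = c := by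
          have ht2 : t * t = 1 := by rw [← sq, hM.rel.t2]
          have ht2' : t⁻¹ * t⁻¹ = 1 := by rw [← mul_inv_rev, ht2, inv_one]
          calc t * (t * c * t⁻¹) * t⁻¹ = (t * t) * c * (t⁻¹ * t⁻¹) := by group
            _ = c := by rw [ht2, ht2', one_mul, mul_one]
        have h2 : t * (c * (t * c * t⁻¹)) * t⁻¹ = c * (t * c * t⁻¹) := by
          calc t * (c * (t * c * t⁻¹)) * t⁻¹ = (t * c * t⁻¹) * (t * (t * c * t⁻¹) * t⁻¹) := by group
            _ = (t * c * t⁻¹) * c := by rw [h1]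
            _ = c * (t * c * t⁻¹) := hZ.comm _ he _ hc
        exact mul_inv_eq_iff_eq_mul.1 h2
    have hc' : t * c * t⁻¹ = c⁻¹ := eq_inv_of_mul_eq_one_right hd1
    have h1 : s (c u) = c u := by
      rw [← MulAut.mul_apply, hsc, MulAut.mul_apply, hsu]
    have h2 : t (c u) = (c u)⁻¹ := hM.t_inv_of_s_fix h1
    have h3 : t (c u) = c⁻¹ (u⁻¹) := by
      rw [← hM.t_inv_of_s_fix hsu, ← hc']
      simp only [MulAut.mul_apply, MulAut.inv_apply_self]
    have h4 : (c * c) u = u := by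
      rw [h3] at h2
      have h5 := congrArg c h2
      rw [MulAut.apply_inv_self, ← map_inv] at h5
      rw [MulAut.mul_apply]
      have h6 : (c (c u))⁻¹ = u⁻¹ := by rw [← map_inv, ← map_inv]; exact h5.symm
      exact inv_injective h6
    have h5 : c ^ 2 ∈ K := by
      rw [sq]
      exact mem_of_fixes hK (mul_mem hc hc) hu hu1 h4
    exact mem_of_pow_mem_cop (hM.cop_orderOf (hZ.le hc) (by norm_num)) h5
  -- the group `B`
  have hBG : closure {s, t} ≤ Gam H s t := le_sup_right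
  have hBN : closure {s, t} ≤ normalizer (K : Set (MulAut W)) := by
    rw [closure_le]
    rintro x (rfl | rfl)
    · exact mem_normalizer_of_conjS_eq hsK
    · exact mem_normalizer_of_conjS_eq htK
  have hBK : ∀ b ∈ closure {s, t}, ∀ k ∈ K, b * k * b⁻¹ ∈ K := fun b hb k hk =>
    (mem_normalizer_iff.1 (hBN hb) k).1 hk
  have hBZ : ∀ b ∈ closure {s, t}, ∀ z ∈ Z, b * z * b⁻¹ ∈ Z := fun b hb z hz =>
    hZ.norm b (hBG hb) z hz
  have hsB : s ∈ closure {s, t} := subset_closure (by simp)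
  have htB : t ∈ closure {s, t} := subset_closure (by simp)
  -- `P b` : `b` acts trivially on `Z` modulo `K`
  have Pinv : ∀ b ∈ closure {s, t}, (∀ z ∈ Z, z⁻¹ * (b * z * b⁻¹) ∈ K) →
      ∀ z ∈ Z, z⁻¹ * (b⁻¹ * z * b⁻¹⁻¹) ∈ K := by
    intro b hb hP z hz
    have h1 := hP _ (hBZ b⁻¹ (inv_mem hb) z hz)
    have h2 := inv_mem h1
    have h3 : ((b⁻¹ * z * b⁻¹⁻¹)⁻¹ * (b * (b⁻¹ * z * b⁻¹⁻¹) * b⁻¹))⁻¹ = z⁻¹ * (b⁻¹ * z * b⁻¹⁻¹) := by
      group
    rwa [h3] at h2
  have Pmul : ∀ b ∈ closure {s, t}, ∀ b' : MulAut W, (∀ z ∈ Z, z⁻¹ * (b * z * b⁻¹) ∈ K) →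
      (∀ z ∈ Z, z⁻¹ * (b' * z * b'⁻¹) ∈ K) → ∀ z ∈ Z, z⁻¹ * ((b * b') * z * (b * b')⁻¹) ∈ K := by
    intro b hb b' hP hP' z hz
    have h1 := mul_mem (hP z hz) (hBK b hb _ (hP' z hz))
    have h3 : z⁻¹ * (b * z * b⁻¹) * (b * (z⁻¹ * (b' * z * b'⁻¹)) * b⁻¹)
        = z⁻¹ * ((b * b') * z * (b * b')⁻¹) := by group
    rwa [h3] at h1
  have Pconj : ∀ g ∈ closure {s, t}, ∀ b : MulAut W, (∀ z ∈ Z, z⁻¹ * (b * z * b⁻¹) ∈ K) →
      ∀ z ∈ Z, z⁻¹ * ((g * b * g⁻¹) * z * (g * b * g⁻¹)⁻¹) ∈ K := by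
    intro g hg b hP z hz
    have h1 := hBK g hg _ (hP _ (hBZ g⁻¹ (inv_mem hg) z hz))
    have h3 : g * ((g⁻¹ * z * g⁻¹⁻¹)⁻¹ * (b * (g⁻¹ * z * g⁻¹⁻¹) * b⁻¹)) * g⁻¹
        = z⁻¹ * ((g * b * g⁻¹) * z * (g * b * g⁻¹)⁻¹) := by group
    rwa [h3] at h1
  -- `P s` is impossible
  have hPs : ¬ ∀ z ∈ Z, z⁻¹ * (s * z * s⁻¹) ∈ K := by
    intro hP
    have hle : Z ≤ K := by
      intro z hz
      have ha : s * z * s⁻¹ ∈ Z := hBZ s hsB z hz
      have hb : s * (s * z * s⁻¹) * s⁻¹ ∈ Z := hBZ s hsB _ ha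
      set a := s * z * s⁻¹ with hadef
      set b := s * a * s⁻¹ with hbdef
      have hsb : s * b * s⁻¹ = z := by
        have h3 : s * s * s = 1 := by
          have := hM.rel.s3
          rwa [pow_succ, pow_succ, pow_one] at this
        have h3' : s⁻¹ * s⁻¹ * s⁻¹ = 1 := by
          have : (s * s * s)⁻¹ = 1 := by rw [h3, inv_one]
          rw [← this]; group
        calc s * b * s⁻¹ = (s * s * s) * z * (s⁻¹ * s⁻¹ * s⁻¹) := by rw [hbdef, hadef]; group
          _ = z := by rw [h3, h3', one_mul, mul_one]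
      have hN : z * a * b ∈ K := by
        apply hplus _ (mul_mem (mul_mem hz ha) hb)
        have h1 : s * (z * a * b) * s⁻¹ = z * a * b := by
          calc s * (z * a * b) * s⁻¹ = (s * z * s⁻¹) * (s * a * s⁻¹) * (s * b * s⁻¹) := by group
            _ = a * b * z := by rw [hsb]
            _ = z * (a * b) := hZ.comm _ (mul_mem ha hb) _ hz
            _ = z * a * b := (mul_assoc _ _ _).symm
        exact mul_inv_eq_iff_eq_mul.1 h1
      have k1 : z⁻¹ * a ∈ K := hP z hz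
      have k2 : a⁻¹ * b ∈ K := hP a ha
      have h3 : z ^ 3 ∈ K := by
        have h4 := mul_mem (mul_mem (mul_mem hN (inv_mem k2)) (inv_mem k1)) (inv_mem k1)
        have h5 : z * a * b * (a⁻¹ * b)⁻¹ * (z⁻¹ * a)⁻¹ * (z⁻¹ * a)⁻¹ = z * (a * z * a⁻¹) * z := by
          group
        have h6 : a * z * a⁻¹ = z := by rw [hZ.comm a ha z hz, mul_inv_cancel_right]
        rw [h5, h6] at h4
        simpa [pow_succ] using h4
      exact mem_of_pow_mem_cop (hM.cop_orderOf (hZ.le hz) (by norm_num)) h3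
    have hEq : Z = K := le_antisymm hle hKZ
    have := fixedSub_Z hM hZ
    rw [hEq] at this
    exact hK.2.1 this
  have hPt : ¬ ∀ z ∈ Z, z⁻¹ * (t * z * t⁻¹) ∈ K := by
    intro hP
    have h1 := Pconj s hsB t hP
    have h2 := Pmul _ (mul_mem (mul_mem hsB htB) (inv_mem hsB)) t h1 hP
    rw [hM.rel.t1_mul_t] at h2
    have h3 := Pinv _ (inv_mem hsB) h2
    simp only [inv_inv] at h3
    exact hPs h3
  -- the norm identity
  have hbot : fixedSub K = ⊥ := by
    apply normId Z (closure {s, t}) hZ.comm hBZ hZ.cop (fixedSub K)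
    · intro y hy v hv k hk
      rw [← MulAut.mul_apply, hZ.comm k (hKZ hk) y hy, MulAut.mul_apply, hv k hk]
    · intro b hb v hv
      have := apply_mem_fixedSub_conjS b K hv
      rwa [conjS_eq_of_mem_normalizer (hBN hb)] at this
    · intro v _ hv
      exact hM.fixW v (hv s hsB) (hv t htB)
    · intro b hb hb1 v hv hfix
      by_contra hv1
      have hP : ∀ z ∈ Z, z⁻¹ * (b * z * b⁻¹) ∈ K := fun z hz =>
        mem_of_fixes hK (mul_mem (inv_mem hz) (hBZ b hb z hz)) hv hv1 (hfix z hz)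
      rcases mem_A hM.rel hb with rfl | rfl | rfl | rfl | rfl | rfl
      · exact hb1 rfl
      · exact hPs hP
      · have h3 := Pinv _ (inv_mem hsB) hP
        simp only [inv_inv] at h3
        exact hPs h3
      · exact hPt hP
      · have h3 := Pconj s⁻¹ (inv_mem hsB) _ hP
        have h4 : s⁻¹ * (s * t * s⁻¹) * s⁻¹⁻¹ = t := by group
        rw [h4] at h3
        exact hPt h3
      · have h3 := Pconj s hsB _ hP
        have h4 : s * (s⁻¹ * t * s) * s⁻¹ = t := by group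
        rw [h4] at h3
        exact hPt h3
  exact hK.2.1 hbot

theorem caseB (hM : Mod r H s t) (hZ : ZHyp H Z s t) (hall : ∀ K ∈ Kset Z, conjS s K = K) :
    ∀ w : W, s w = w → w = 1 := by
  intro x hx
  apply eq_one_of_normMap hM hZ
  intro K hK
  apply caseB_claim hM hZ hall hK (normMap_mem_fixedSub K x)
  rw [normMap_conj, hall K hK, hx]

end Cfsg.Agent.Lib.Helper71.S3
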