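import Mathlib
import Cfsg.Agent.Lib.Helper71.S3.Defs

/-!
# Piece F: the final contradiction of EL3, and class 2 power formulas
-/

set_option autoImplicit false

namespace Cfsg.Agent.Lib.Helper71.S3

open Subgroup Cfsg.Agent.Lib.Helper22 Cfsg.Agent.Lib.Helper88

variable {W : Type*} [CommGroup W] [Finite W]

omit [Finite W] in
/-- the norm of a cyclic operator is fixed -/
theorem cyc_norm_fixed (a : MulAut W) {m : ℕ} (ha : a ^ m = 1) (w : W) :
    a (∏ i ∈ Finset.range m, (a ^ i) w) = ∏ i ∈ Finset.range m, (a ^ i) w := by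
  rw [map_prod]
  have h1 : ∀ i, a ((a ^ i) w) = (a ^ (i + 1)) w := by
    intro i
    rw [pow_succ', MulAut.mul_apply]
  simp only [h1]
  have h2 := Finset.prod_range_succ (fun i => (a ^ i) w) m
  have h3 := Finset.prod_range_succ' (fun i => (a ^ i) w) m
  rw [h2] at h3
  simp only [ha, pow_zero] at h3
  exact (mul_right_cancel h3).symm

theorem el3_final (c z d : MulAut W) {m : ℕ} (hmP : m.Prime) (hcm : c ^ m = 1) (hzm : z ^ m = 1)
    (hcz : c * z = z * c) (hdz : d * z = z * d) (hconj : d⁻¹ * c * d = c * z)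
    (hm : ¬ m ∣ Nat.card W) (X : Subgroup W) (hX : ∀ w, c w = w → w ∈ X)
    (hXz : ∀ w ∈ X, z w = w) (hXd : ∀ w, w ∈ X ↔ d w ∈ X) : z = 1 := by
  classical
  have hCZ : Commute c z := hcz
  have hDZ : Commute d z := hdz
  -- c d^j = d^j (c z^j)
  have hcd : ∀ j : ℕ, c * d ^ j = d ^ j * (c * z ^ j) := by
    intro j
    induction j with
    | zero => simp
    | succ j ih =>
      have h1 : c * d = d * (c * z) := by
        rw [← hconj]; group
      have h2 : z ^ j * d = d * z ^ j := ((hDZ.pow_right j).eq).symm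
      calc c * d ^ (j + 1) = (c * d ^ j) * d := by rw [pow_succ, mul_assoc]
        _ = d ^ j * (c * z ^ j) * d := by rw [ih]
        _ = d ^ j * c * (z ^ j * d) := by simp only [mul_assoc]
        _ = d ^ j * (c * d) * z ^ j := by rw [h2]; simp only [mul_assoc]
        _ = d ^ j * (d * (c * z)) * z ^ j := by rw [h1]
        _ = d ^ (j + 1) * (c * z ^ (j + 1)) := by
            rw [pow_succ d, pow_succ' z]; simp only [mul_assoc]
  have hXdj : ∀ (j : ℕ) (w : W), (d ^ j) w ∈ X → w ∈ X := by
    intro j
    induction j with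
    | zero => intro w hw; simpa using hw
    | succ j ih =>
      intro w hw
      rw [pow_succ', MulAut.mul_apply] at hw
      exact ih w ((hXd _).mpr hw)
  have hfixX : ∀ (j : ℕ) (w : W), (c * z ^ j) w = w → w ∈ X := by
    intro j w hw
    apply hXdj j
    apply hX
    have := congrArg (fun f : MulAut W => f w) (hcd j)
    simp only [MulAut.mul_apply] at this hw
    rw [this, hw]
  have hczm : ∀ j : ℕ, (c * z ^ j) ^ m = 1 := by
    intro j
    rw [(hCZ.pow_right j).mul_pow, hcm, ← pow_mul, mul_comm, pow_mul, hzm, one_pow, one_mul]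
  ext w
  show z w = w
  -- the double product
  let T : ℕ → W := fun i => (c ^ i) (∏ j ∈ Finset.range m, ((z ^ i) ^ j) w)
  have hP : ∏ i ∈ Finset.range m, T i ∈ X := by
    have h1 : ∏ i ∈ Finset.range m, T i
        = ∏ j ∈ Finset.range m, ∏ i ∈ Finset.range m, ((c * z ^ j) ^ i) w := by
      rw [Finset.prod_comm]
      refine Finset.prod_congr rfl (fun i _ => ?_)
      show (c ^ i) (∏ j ∈ Finset.range m, ((z ^ i) ^ j) w) = _
      rw [map_prod]
      refine Finset.prod_congr rfl (fun j _ => ?_)
      rw [(hCZ.pow_right j).mul_pow, MulAut.mul_apply, ← pow_mul, ← pow_mul, mul_comm]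
    rw [h1]
    refine Subgroup.prod_mem X (fun j _ => ?_)
    exact hfixX j _ (cyc_norm_fixed _ (hczm j) w)
  have hT0 : T 0 = w ^ m := by
    show (c ^ 0) (∏ j ∈ Finset.range m, ((z ^ 0) ^ j) w) = w ^ m
    simp
  have hTi : ∀ i ∈ (Finset.range m).erase 0, z (T i) = T i := by
    intro i hi
    rw [Finset.mem_erase, Finset.mem_range] at hi
    obtain ⟨hi0, him⟩ := hi
    have hcop : Nat.Coprime i m := by
      rw [Nat.coprime_comm, Nat.Prime.coprime_iff_not_dvd hmP]
      intro h
      exact absurd (Nat.le_of_dvd (Nat.pos_of_ne_zero hi0) h) (not_le.mpr him)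
    obtain ⟨k, -, hk⟩ := Nat.exists_mul_mod_eq_one_of_coprime hcop hmP.one_lt
    have hzk : (z ^ i) ^ k = z := by
      rw [← pow_mul, pow_eq_pow_mod _ hzm, hk, pow_one]
    have hzim : (z ^ i) ^ m = 1 := by
      rw [← pow_mul, mul_comm, pow_mul, hzm, one_pow]
    set N := ∏ j ∈ Finset.range m, ((z ^ i) ^ j) w with hN
    have hfixN : (z ^ i) N = N := cyc_norm_fixed _ hzim w
    have hpow : ∀ k : ℕ, ((z ^ i) ^ k) N = N := by
      intro k
      induction k with
      | zero => simp
      | succ k ih => rw [pow_succ, MulAut.mul_apply, hfixN, ih]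
    have hzN : z N = N := by
      have := hpow k
      rwa [hzk] at this
    show z ((c ^ i) N) = (c ^ i) N
    have hcomm : z * c ^ i = c ^ i * z := ((hCZ.pow_left i).eq).symm
    have := congrArg (fun f : MulAut W => f N) hcomm
    simp only [MulAut.mul_apply] at this
    rw [this, hzN]
  have hzwm : z (w ^ m) = w ^ m := by
    have h0 : 0 ∈ Finset.range m := Finset.mem_range.mpr hmP.pos
    have hsplit := Finset.mul_prod_erase (Finset.range m) T h0
    have hzP := hXz _ hP
    rw [← hsplit, map_mul, map_prod, Finset.prod_congr rfl hTi, hT0] at hzP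
    exact mul_right_cancel hzP
  have h1 : (z w * w⁻¹) ^ m = 1 := by
    rw [mul_pow, inv_pow, ← map_pow, hzwm, mul_inv_cancel]
  have h2 : z w * w⁻¹ = 1 := by
    have hd1 : orderOf (z w * w⁻¹) ∣ m := orderOf_dvd_of_pow_eq_one h1
    have hd2 : orderOf (z w * w⁻¹) ∣ Nat.card W := orderOf_dvd_natCard _
    rcases (Nat.dvd_prime hmP).mp hd1 with h | h
    · exact orderOf_eq_one_iff.mp h
    · rw [h] at hd2; exact absurd hd2 hm
  exact mul_inv_eq_one.mp h2

theorem pow_comm_class2 {Γ : Type*} [Group Γ] (a b e : Γ) (hba : b * a = a * b * e)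
    (hae : a * e = e * a) (hbe : b * e = e * b) (k : ℕ) :
    b ^ k * a = a * b ^ k * e ^ k ∧ b * a ^ k = a ^ k * b * e ^ k := by
  have hAE : Commute a e := hae
  have hBE : Commute b e := hbe
  constructor
  · induction k with
    | zero => simp
    | succ k ih =>
      calc b ^ (k + 1) * a = b * (b ^ k * a) := by rw [pow_succ', mul_assoc]
        _ = b * (a * b ^ k * e ^ k) := by rw [ih]
        _ = (b * a) * b ^ k * e ^ k := by simp only [mul_assoc]
        _ = a * b * e * b ^ k * e ^ k := by rw [hba]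
        _ = a * b * (e * b ^ k) * e ^ k := by simp only [mul_assoc]
        _ = a * b * (b ^ k * e) * e ^ k := by rw [((hBE.pow_left k).eq)]
        _ = a * b ^ (k + 1) * e ^ (k + 1) := by
            rw [pow_succ' b, pow_succ' e]; simp only [mul_assoc]
  · induction k with
    | zero => simp
    | succ k ih =>
      calc b * a ^ (k + 1) = (b * a ^ k) * a := by rw [pow_succ, mul_assoc]
        _ = a ^ k * b * e ^ k * a := by rw [ih]
        _ = a ^ k * b * (e ^ k * a) := by simp only [mul_assoc]
        _ = a ^ k * b * (a * e ^ k) := by rw [((hAE.pow_right k).eq)]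
        _ = a ^ k * (b * a) * e ^ k := by simp only [mul_assoc]
        _ = a ^ k * (a * b * e) * e ^ k := by rw [hba]
        _ = a ^ (k + 1) * b * e ^ (k + 1) := by
            rw [pow_succ a, pow_succ' e]; simp only [mul_assoc]

/-- power of a product in class 2: if `b * a = a * b * e` with `e` commuting with `a, b` -/
theorem mul_pow_class2 {Γ : Type*} [Group Γ] (a b e : Γ) (hba : b * a = a * b * e)
    (hae : a * e = e * a) (hbe : b * e = e * b) (k : ℕ) :
    (a * b) ^ k = a ^ k * b ^ k * e ^ (k.choose 2) := by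
  have hAE : Commute a e := hae
  have hBE : Commute b e := hbe
  induction k with
  | zero => simp
  | succ k ih =>
    have h1 := (pow_comm_class2 a b e hba hae hbe k).1
    have hch : (k + 1).choose 2 = k + k.choose 2 := by
      rw [Nat.choose_succ_succ' k 1, Nat.choose_one_right]
    have h2 : e ^ (k.choose 2) * (a * b) = (a * b) * e ^ (k.choose 2) :=
      (((hAE.mul_left hBE).pow_right _).eq).symm
    have h3 : e ^ k * b = b * e ^ k := ((hBE.pow_right k).eq).symm
    calc (a * b) ^ (k + 1) = (a * b) ^ k * (a * b) := pow_succ _ _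
      _ = a ^ k * b ^ k * e ^ (k.choose 2) * (a * b) := by rw [ih]
      _ = a ^ k * b ^ k * (e ^ (k.choose 2) * (a * b)) := by simp only [mul_assoc]
      _ = a ^ k * b ^ k * ((a * b) * e ^ (k.choose 2)) := by rw [h2]
      _ = a ^ k * (b ^ k * a) * b * e ^ (k.choose 2) := by simp only [mul_assoc]
      _ = a ^ k * (a * b ^ k * e ^ k) * b * e ^ (k.choose 2) := by rw [h1]
      _ = a ^ k * a * b ^ k * (e ^ k * b) * e ^ (k.choose 2) := by simp only [mul_assoc]
      _ = a ^ k * a * b ^ k * (b * e ^ k) * e ^ (k.choose 2) := by rw [h3]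
      _ = a ^ (k + 1) * b ^ (k + 1) * e ^ ((k + 1).choose 2) := by
          rw [hch, pow_succ a, pow_succ b, pow_add e]; simp only [mul_assoc]

end Cfsg.Agent.Lib.Helper71.S3
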