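import Mathlib
import Cfsg.Agent.Lib.Helper71.S3.Defs

/-!
# Piece K: the key lemma for an operator g with 1 + g + g² = 0, and the abelian case
-/

set_option autoImplicit false

namespace Cfsg.Agent.Lib.Helper71.S3

open Subgroup Cfsg.Agent.Lib.Helper22 Cfsg.Agent.Lib.Helper88

variable {W : Type*} [CommGroup W] [Finite W]

omit [Finite W] in
theorem cube_apply (g : MulAut W) (hg : ∀ w, w * g w * g (g w) = 1) (w : W) :
    g (g (g w)) = w := by
  have h1 := hg w
  have h2 := hg (g w)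
  have h3 : w * (g w * g (g w)) = (g w * g (g w)) * g (g (g w)) := by
    rw [← mul_assoc, h1, h2]
  rw [mul_comm] at h3
  exact (mul_left_cancel h3).symm

omit [Finite W] in
theorem cube_eq_one (g : MulAut W) (hg : ∀ w, w * g w * g (g w) = 1) : g ^ 3 = 1 := by
  ext w
  have : (g ^ 3) w = g (g (g w)) := by
    simp [pow_succ, MulAut.mul_apply]
  rw [this, cube_apply g hg]
  rfl

omit [Finite W] in
theorem key (g c : MulAut W) (hg : ∀ w, w * g w * g (g w) = 1)
    (hc : ∀ w, w * (c * g) w * (c * g) ((c * g) w) = 1) (w : W) (hw : c w = w) :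
    c (g w) = g w := by
  have h1 := hc (g (g w))
  simp only [MulAut.mul_apply] at h1
  rw [cube_apply g hg, hw] at h1
  have h2 := hg w
  have h3 : g (g w) * w * c (g w) = g (g w) * w * g w := by
    rw [h1, ← h2]
    simp only [mul_comm, mul_left_comm]
  exact mul_left_cancel h3

omit [Finite W] in
theorem conj_norm (g y : MulAut W) (hg : ∀ w, w * g w * g (g w) = 1) :
    ∀ w, w * (y⁻¹ * g * y) w * (y⁻¹ * g * y) ((y⁻¹ * g * y) w) = 1 := by
  intro w
  have h := hg (y w)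
  have h2 := congrArg (fun v => y⁻¹ v) h
  simp only [map_mul, map_one, MulAut.inv_apply_self] at h2
  simp only [MulAut.mul_apply, MulAut.apply_inv_self]
  exact h2

omit [Finite W] in
theorem fix_conj (g y : MulAut W) (hg : ∀ w, w * g w * g (g w) = 1) (w : W)
    (hw : (y⁻¹ * (g * y * g⁻¹)) w = w) :
    (g * (y⁻¹ * (g * y * g⁻¹)) * g⁻¹) w = w ∧ (g⁻¹ * (y⁻¹ * (g * y * g⁻¹)) * g) w = w := by
  set c : MulAut W := y⁻¹ * (g * y * g⁻¹) with hcdef
  have hcg : c * g = y⁻¹ * g * y := by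
    rw [hcdef]; group
  have hc : ∀ w, w * (c * g) w * (c * g) ((c * g) w) = 1 := by
    rw [hcg]; exact conj_norm g y hg
  have hk : ∀ v, c v = v → c (g v) = g v := fun v hv => key g c hg hc v hv
  have hginv : ∀ v, g⁻¹ v = g (g v) := by
    intro v
    apply g.injective
    rw [MulAut.apply_inv_self, cube_apply g hg]
  constructor
  · simp only [MulAut.mul_apply]
    rw [hginv, hk _ (hk _ hw), cube_apply g hg]
  · simp only [MulAut.mul_apply]
    rw [hk _ hw, MulAut.inv_apply_self]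

omit [Finite W] in
theorem prod_fixed_aux {M : Subgroup (MulAut W)} [Fintype M] (f : M → MulAut W)
    (hf : ∀ a b, f (a * b) = f a * f b) (v : W) (y0 : M) :
    f y0 (∏ y : M, f y v) = ∏ y : M, f y v := by
  rw [map_prod]
  exact Fintype.prod_equiv (Equiv.mulLeft y0) _ _ (fun y => by simp [hf, MulAut.mul_apply])

theorem el3_abelian (g : MulAut W) (hg : ∀ w, w * g w * g (g w) = 1) (M : Subgroup (MulAut W))
    (hMc : ∀ x ∈ M, ∀ y ∈ M, x * y = y * x) (hgM : ∀ x ∈ M, g * x * g⁻¹ ∈ M)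
    (hcop : (Nat.card M).Coprime (Nat.card W)) : ∀ x ∈ M, g * x = x * g := by
  classical
  have : Fintype M := Fintype.ofFinite M
  have hg3 := cube_eq_one g hg
  let φ : M → MulAut W := fun y => (y : MulAut W)⁻¹ * (g * y * g⁻¹)
  let ψ : M → MulAut W := fun y => (y : MulAut W)⁻¹ * (g * (g * y * g⁻¹) * g⁻¹)
  have hφ : ∀ a b, φ (a * b) = φ a * φ b := by
    intro a b
    show ((a * b : M) : MulAut W)⁻¹ * (g * (a * b : M) * g⁻¹)
      = ((a : MulAut W)⁻¹ * (g * a * g⁻¹)) * ((b : MulAut W)⁻¹ * (g * b * g⁻¹))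
    have h1 : (g * (a : MulAut W) * g⁻¹) * (b : MulAut W)⁻¹
        = (b : MulAut W)⁻¹ * (g * (a : MulAut W) * g⁻¹) :=
      hMc _ (hgM _ a.2) _ (M.inv_mem b.2)
    have h2 : (a : MulAut W)⁻¹ * (b : MulAut W)⁻¹ = (b : MulAut W)⁻¹ * (a : MulAut W)⁻¹ :=
      hMc _ (M.inv_mem a.2) _ (M.inv_mem b.2)
    calc ((a * b : M) : MulAut W)⁻¹ * (g * (a * b : M) * g⁻¹)
        = ((b : MulAut W)⁻¹ * (a : MulAut W)⁻¹) * ((g * a * g⁻¹) * (g * b * g⁻¹)) := by
          rw [Subgroup.coe_mul]; group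
      _ = (a : MulAut W)⁻¹ * ((b : MulAut W)⁻¹ * (g * a * g⁻¹)) * (g * b * g⁻¹) := by
          rw [← h2]; group
      _ = ((a : MulAut W)⁻¹ * (g * a * g⁻¹)) * ((b : MulAut W)⁻¹ * (g * b * g⁻¹)) := by
          rw [← h1]; group
  let γ : M → M := fun y => ⟨g * y * g⁻¹, hgM _ y.2⟩
  have hψφ : ∀ y, ψ y = φ y * φ (γ y) := by
    intro y
    show (y : MulAut W)⁻¹ * (g * (g * y * g⁻¹) * g⁻¹)
      = ((y : MulAut W)⁻¹ * (g * y * g⁻¹)) * ((g * (y : MulAut W) * g⁻¹)⁻¹ * (g * (g * y * g⁻¹) * g⁻¹))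
    group
  have hγ : ∀ a b, γ (a * b) = γ a * γ b := by
    intro a b
    apply Subtype.ext
    show g * ((a * b : M) : MulAut W) * g⁻¹ = (g * a * g⁻¹) * (g * b * g⁻¹)
    rw [Subgroup.coe_mul]; group
  have hφM : ∀ a, φ a ∈ M := fun a => M.mul_mem (M.inv_mem a.2) (hgM _ a.2)
  have hψ : ∀ a b, ψ (a * b) = ψ a * ψ b := by
    intro a b
    rw [hψφ, hψφ, hψφ, hγ, hφ, hφ]
    have h1 : φ b * φ (γ a) = φ (γ a) * φ b := hMc _ (hφM _) _ (hφM _)
    calc φ a * φ b * (φ (γ a) * φ (γ b)) = φ a * (φ b * φ (γ a)) * φ (γ b) := by group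
      _ = φ a * φ (γ a) * (φ b * φ (γ b)) := by rw [h1]; group
  -- the relation
  have hrel : ∀ (w : W) (y : M), w * φ y (g w) * ψ y (g (g w)) = 1 := by
    intro w y
    have h := conj_norm g (y : MulAut W) hg w
    have e1 : ((y : MulAut W)⁻¹ * g * y) w = φ y (g w) := by
      show _ = ((y : MulAut W)⁻¹ * (g * y * g⁻¹)) (g w)
      simp only [MulAut.mul_apply, MulAut.inv_apply_self]
    have e2 : ((y : MulAut W)⁻¹ * g * y) (((y : MulAut W)⁻¹ * g * y) w) = ψ y (g (g w)) := by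
      show _ = ((y : MulAut W)⁻¹ * (g * (g * y * g⁻¹) * g⁻¹)) (g (g w))
      simp only [MulAut.mul_apply, MulAut.inv_apply_self, MulAut.apply_inv_self]
    rw [e2, e1] at h
    exact h
  have hfix : ∀ (w : W) (y0 : M), ψ y0 (w ^ Nat.card M) = w ^ Nat.card M := by
    intro w y0
    set x1 := ∏ y : M, φ y (g w) with hx1
    set x2 := ∏ y : M, ψ y (g (g w)) with hx2
    have hprod : w ^ Nat.card M * x1 * x2 = 1 := by
      have : ∏ y : M, (w * φ y (g w) * ψ y (g (g w))) = 1 :=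
        Finset.prod_eq_one (fun y _ => hrel w y)
      rw [Finset.prod_mul_distrib, Finset.prod_mul_distrib, Finset.prod_const, Finset.card_univ,
        ← Nat.card_eq_fintype_card] at this
      exact this
    have f1 : ∀ y0, φ y0 x1 = x1 := fun y0 => prod_fixed_aux φ hφ (g w) y0
    have f2 : ψ y0 x2 = x2 := prod_fixed_aux ψ hψ (g (g w)) y0
    have f3 : ψ y0 x1 = x1 := by
      rw [hψφ, MulAut.mul_apply, f1, f1]
    have h1 : w ^ Nat.card M = (x1 * x2)⁻¹ := by
      rw [eq_inv_iff_mul_eq_one, ← mul_assoc]; exact hprod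
    rw [h1, map_inv, map_mul, f3, f2]
  have hψ1 : ∀ y0 : M, ψ y0 = 1 := by
    intro y0
    ext w
    obtain ⟨u, hu⟩ := (powCoprime hcop.symm).surjective w
    have hu' : u ^ Nat.card M = w := hu
    rw [← hu', hfix]
    rfl
  intro x hx
  have h1 : (x : MulAut W)⁻¹ * (g * (g * x * g⁻¹) * g⁻¹) = 1 := hψ1 ⟨x, hx⟩
  have h2 : g * (g * x * g⁻¹) * g⁻¹ = x := by
    have := congrArg (fun v => x * v) h1
    simpa using this
  have hg3' : g * g * g = 1 := by
    rw [← hg3]; simp [pow_succ]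
  have h3 : g * g * x = x * (g * g) := by
    have : g * (g * x * g⁻¹) * g⁻¹ * (g * g) = x * (g * g) := by rw [h2]
    rw [← this]; group
  have h4 : g = g * g * (g * g) := by
    calc g = (g * g * g) * g := by rw [hg3', one_mul]
      _ = g * g * (g * g) := by group
  calc g * x = g * g * (g * g) * x := by rw [← h4]
    _ = g * g * (g * g * x) := by rw [mul_assoc]
    _ = g * g * (x * (g * g)) := by rw [h3]
    _ = (g * g * x) * (g * g) := by rw [mul_assoc (g * g) x]
    _ = x * (g * g) * (g * g) := by rw [h3]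
    _ = x * (g * g * (g * g)) := by rw [mul_assoc]
    _ = x * g := by rw [← h4]

end Cfsg.Agent.Lib.Helper71.S3
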