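import Mathlib
import Cfsg.Agent.Lib.Helper71.S3.Defs
import Cfsg.Agent.Lib.Helper71.S3.Key
import Cfsg.Agent.Lib.Helper71.S3.Final

/-!
# Piece E: EL3.  An operator g with 1 + g + g² = 0 on W centralizes every g-invariant
m-subgroup M of MulAut W  (m prime, m ≠ 2, 3, m ∤ |W|).
-/

set_option autoImplicit false

namespace Cfsg.Agent.Lib.Helper71.S3

open Subgroup Cfsg.Agent.Lib.Helper22 Cfsg.Agent.Lib.Helper88
open scoped commutatorElement

variable {W : Type*} [CommGroup W] [Finite W]

/-- an element of an `m`-group killed by a power prime to `m` is trivial -/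
theorem eq_one_of_pgroup_pow {Γ : Type*} [Group Γ] {m n : ℕ} (hmP : m.Prime) {M : Subgroup Γ}
    (hM : IsPGroup m M) {x : Γ} (hx : x ∈ M) (hn : ¬ m ∣ n) (hxn : x ^ n = 1) : x = 1 := by
  obtain ⟨k, hk⟩ := hM ⟨x, hx⟩
  have hk' : x ^ m ^ k = 1 := by
    have := congrArg Subtype.val hk
    simpa using this
  have h1 : orderOf x ∣ m ^ k := orderOf_dvd_of_pow_eq_one hk'
  have h2 : orderOf x ∣ n := orderOf_dvd_of_pow_eq_one hxn
  have hcop : Nat.Coprime (m ^ k) n :=
    Nat.Coprime.pow_left k ((Nat.Prime.coprime_iff_not_dvd hmP).mpr hn)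
  exact orderOf_eq_one_iff.mp (Nat.eq_one_of_dvd_coprimes hcop h1 h2)

theorem el3_min (g : MulAut W) (hg : ∀ w, w * g w * g (g w) = 1) {m : ℕ} (hmP : m.Prime)
    (hm2 : m ≠ 2) (hm3 : m ≠ 3) (M : Subgroup (MulAut W)) (hM : IsPGroup m M)
    (hgM : ∀ x ∈ M, g * x * g⁻¹ ∈ M) (hcop : ¬ m ∣ Nat.card W)
    (IH : ∀ M₀ : Subgroup (MulAut W), M₀ < M → (∀ x ∈ M₀, g * x * g⁻¹ ∈ M₀) →
      ∀ x ∈ M₀, g * x = x * g) : ∀ x ∈ M, g * x = x * g := by
  classical
  have : Fact m.Prime := ⟨hmP⟩
  have hg3 := cube_eq_one g hg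
  have hg3' : g * g * g = 1 := by
    rw [← hg3]; simp [pow_succ]
  set σ : MulAut (MulAut W) := MulAut.conj g with hσdef
  have hσ : ∀ x, σ x = g * x * g⁻¹ := fun x => MulAut.conj_apply g x
  have hσ3 : ∀ x, σ (σ (σ x)) = x := by
    intro x
    rw [hσ, hσ, hσ]
    calc g * (g * (g * x * g⁻¹) * g⁻¹) * g⁻¹ = (g * g * g) * x * (g * g * g)⁻¹ := by group
      _ = x := by rw [hg3']; simp
  have hcomm_iff : ∀ x, g * x = x * g ↔ σ x = x := by
    intro x
    rw [hσ, mul_inv_eq_iff_eq_mul]
  have hσM : ∀ x ∈ M, σ x ∈ M := fun x hx => by rw [hσ]; exact hgM x hx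
  have IH' : ∀ M₀ : Subgroup (MulAut W), M₀ < M → (∀ x ∈ M₀, σ x ∈ M₀) → ∀ x ∈ M₀, σ x = x := by
    intro M₀ hlt hinv x hx
    rw [← hcomm_iff]
    exact IH M₀ hlt (fun x hx => by rw [← hσ]; exact hinv x hx) x hx
  suffices H : ∀ n : ℕ, ∀ y ∈ M, orderOf y = n → σ y = y by
    intro x hx
    rw [hcomm_iff]
    exact H _ x hx rfl
  intro n
  induction n using Nat.strong_induction_on with
  | _ n ihn =>
  intro y hy hyn
  by_contra hne
  have hy1 : y ≠ 1 := by
    rintro rfl
    exact hne (map_one σ)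
  -- y ^ m is fixed
  have hmdvd : m ∣ orderOf y := by
    by_contra hnd
    exact hy1 (eq_one_of_pgroup_pow hmP hM hy hnd (pow_orderOf_eq_one y))
  have hv : σ (y ^ m) = y ^ m := by
    refine ihn (orderOf (y ^ m)) ?_ (y ^ m) (M.pow_mem hy m) rfl
    rw [orderOf_pow_of_dvd hmP.ne_zero hmdvd, ← hyn]
    exact Nat.div_lt_self (orderOf_pos y) hmP.one_lt
  set c : MulAut W := y⁻¹ * σ y with hc
  have hcM : c ∈ M := M.mul_mem (M.inv_mem hy) (hσM y hy)
  have hc1 : c ≠ 1 := by
    intro h
    apply hne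
    rw [hc, inv_mul_eq_one] at h
    exact h.symm
  have htel : c * σ c * σ (σ c) = 1 := by
    rw [hc]
    simp only [map_mul, map_inv, hσ3]
    group
  set S : Set (MulAut W) := {c, σ c, σ (σ c)} with hS
  have hSM : closure S ≤ M := by
    rw [closure_le]
    rintro x (rfl | rfl | rfl)
    · exact hcM
    · exact hσM _ hcM
    · exact hσM _ (hσM _ hcM)
  have hSinv : ∀ x ∈ closure S, σ x ∈ closure S := by
    intro x hx
    induction hx using closure_induction with
    | mem x hx =>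
      apply Subgroup.subset_closure
      rcases hx with rfl | rfl | rfl
      · simp [hS]
      · simp [hS]
      · rw [hσ3]; simp [hS]
    | one => rw [map_one]; exact one_mem _
    | mul a b _ _ ha hb => rw [map_mul]; exact mul_mem ha hb
    | inv a _ ha => rw [map_inv]; exact inv_mem ha
  -- (1)
  have hM0 : closure S = M := by
    refine (lt_or_eq_of_le hSM).resolve_left ?_
    intro hlt
    have h1 : σ c = c := IH' _ hlt hSinv c (Subgroup.subset_closure (by simp [hS]))
    rw [h1, h1] at htel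
    apply hc1
    refine eq_one_of_pgroup_pow hmP hM hcM (n := 3) ?_ ?_
    · intro h
      exact hm3 ((Nat.prime_dvd_prime_iff_eq hmP Nat.prime_three).mp h)
    · rw [← htel]; simp [pow_succ]
  have hclos : ∀ (P : MulAut W → Prop), P c → P (σ c) → P (σ (σ c)) → P 1 →
      (∀ a b, P a → P b → P (a * b)) → (∀ a, P a → P a⁻¹) → ∀ x ∈ M, P x := by
    intro P h1 h2 h3 h4 h5 h6 x hx
    rw [← hM0] at hx
    induction hx using closure_induction with
    | mem x hx =>
      rcases hx with rfl | rfl | rfl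
      · exact h1
      · exact h2
      · exact h3
    | one => exact h4
    | mul a b _ _ ha hb => exact h5 a b ha hb
    | inv a _ ha => exact h6 a ha
  -- (2)
  have hσσ : ∀ x, σ (σ x) = g⁻¹ * x * g := by
    intro x
    have h := hσ3 (g⁻¹ * x * g)
    have h2 : σ (g⁻¹ * x * g) = x := by rw [hσ]; group
    rw [h2] at h
    exact h
  have hX : ∀ w, c w = w → w ∈ fixedSub M := by
    intro w hw
    have hw' : (y⁻¹ * (g * y * g⁻¹)) w = w := by rw [← hσ]; exact hw
    obtain ⟨f1, f2⟩ := fix_conj g y hg w hw'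
    rw [← hσ y, ← hσ] at f1
    rw [← hσ y, ← hσσ] at f2
    rw [mem_fixedSub]
    refine hclos (fun α => α w = w) hw f1 f2 rfl ?_ ?_
    · intro a b ha hb
      rw [MulAut.mul_apply, hb, ha]
    · intro a ha
      have h := congrArg (fun v => a⁻¹ v) ha
      simp only [MulAut.inv_apply_self] at h
      exact h.symm
  -- (3)
  have hcopM : (Nat.card M).Coprime (Nat.card W) := by
    obtain ⟨k, hk⟩ := IsPGroup.iff_card.mp hM
    rw [hk]
    exact Nat.Coprime.pow_left k ((Nat.Prime.coprime_iff_not_dvd hmP).mpr hcop)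
  have hnc : ¬ ∀ a ∈ M, ∀ b ∈ M, a * b = b * a := by
    intro hab
    exact hne ((hcomm_iff y).mp (el3_abelian g hg M hab hgM hcopM y hy))
  -- (4)
  have hM'le : ⁅M, M⁆ ≤ M := by
    rw [commutator_le]
    intro a ha b hb
    exact M.mul_mem (M.mul_mem (M.mul_mem ha hb) (M.inv_mem ha)) (M.inv_mem hb)
  have hM'lt : ⁅M, M⁆ < M := by
    refine lt_of_le_of_ne hM'le ?_
    intro heq
    have hnt : Nontrivial M := ⟨⟨⟨y, hy⟩, 1, fun h => hy1 (congrArg Subtype.val h)⟩⟩
    have hnil : Group.IsNilpotent M := hM.isNilpotent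
    have hlt := Group.IsSolvable.commutator_lt_top_of_nontrivial M
    have h2 : (_root_.commutator M).map M.subtype = ⁅M, M⁆ := map_subtype_commutator M
    rw [heq] at h2
    apply hlt.ne
    apply (map_injective M.subtype_injective)
    rw [h2, ← MonoidHom.range_eq_map, M.range_subtype]
  have hM'inv : ∀ x ∈ ⁅M, M⁆, σ x ∈ ⁅M, M⁆ := by
    intro x hx
    have h1 : σ x ∈ (⁅M, M⁆).map σ.toMonoidHom := mem_map_of_mem _ hx
    rw [map_commutator] at h1
    have h2 : M.map σ.toMonoidHom ≤ M := by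
      rintro _ ⟨a, ha, rfl⟩
      exact hσM a ha
    exact commutator_mono h2 h2 h1
  have hM'fix : ∀ x ∈ ⁅M, M⁆, σ x = x := IH' _ hM'lt hM'inv
  -- (5)
  have hcent : ∀ u ∈ ⁅M, M⁆, ∀ x ∈ M, x * u = u * x := by
    intro u hu
    have h1 : y * u * y⁻¹ ∈ ⁅M, M⁆ := by
      have h2 : ⁅y, u⁆ ∈ ⁅M, M⁆ := commutator_mem_commutator hy (hM'le hu)
      have h3 : y * u * y⁻¹ = ⁅y, u⁆ * u := by
        rw [commutatorElement_def]; group
      rw [h3]
      exact mul_mem h2 hu
    have h2 := hM'fix _ h1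
    rw [map_mul, map_mul, map_inv, hM'fix u hu] at h2
    have hcu : c * u = u * c := by
      rw [hc]
      have h3 : σ y * u = y * u * y⁻¹ * σ y := by
        rw [← h2]; group
      calc y⁻¹ * σ y * u = y⁻¹ * (σ y * u) := by group
        _ = y⁻¹ * (y * u * y⁻¹ * σ y) := by rw [h3]
        _ = u * (y⁻¹ * σ y) := by group
    have hσcu : ∀ a, a * u = u * a → σ a * u = u * σ a := by
      intro a ha
      have := congrArg σ ha
      rw [map_mul, map_mul, hM'fix u hu] at this
      exact this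
    refine hclos (fun x => x * u = u * x) hcu (hσcu _ hcu) (hσcu _ (hσcu _ hcu)) (by simp) ?_ ?_
    · intro a b ha hb
      calc a * b * u = a * (b * u) := by group
        _ = (a * u) * b := by rw [hb]; group
        _ = u * (a * b) := by rw [ha]; group
    · intro a ha
      calc a⁻¹ * u = a⁻¹ * (u * a) * a⁻¹ := by group
        _ = a⁻¹ * (a * u) * a⁻¹ := by rw [ha]
        _ = u * a⁻¹ := by group
  -- (6)
  set d : MulAut W := σ c with hd
  have hdM : d ∈ M := hσM _ hcM
  set z : MulAut W := c⁻¹ * d⁻¹ * c * d with hz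
  have hzM' : z ∈ ⁅M, M⁆ := by
    have h := commutator_mem_commutator (M.inv_mem hcM) (M.inv_mem hdM)
    rw [commutatorElement_def, inv_inv, inv_inv] at h
    exact h
  have hconj : d⁻¹ * c * d = c * z := by
    rw [hz]; group
  have hz1 : z ≠ 1 := by
    intro hz1
    apply hnc
    have hcd : c * d = d * c := by
      have h : d⁻¹ * c * d = c := by rw [hconj, hz1, mul_one]
      calc c * d = d * (d⁻¹ * c * d) := by group
        _ = d * c := by rw [h]
    have he : σ d = (c * d)⁻¹ := eq_inv_of_mul_eq_one_right htel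
    have hmulc : ∀ u a b : MulAut W, a * u = u * a → b * u = u * b → a * b * u = u * (a * b) := by
      intro u a b ha hb
      calc a * b * u = a * (b * u) := by group
        _ = (a * u) * b := by rw [hb]; group
        _ = u * (a * b) := by rw [ha]; group
    have hinvc : ∀ u a : MulAut W, a * u = u * a → a⁻¹ * u = u * a⁻¹ := by
      intro u a ha
      calc a⁻¹ * u = a⁻¹ * (u * a) * a⁻¹ := by group
        _ = a⁻¹ * (a * u) * a⁻¹ := by rw [ha]
        _ = u * a⁻¹ := by group
    have hcl : ∀ a, c * a = a * c → d * a = a * d → ∀ x ∈ M, x * a = a * x := by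
      intro a h1 h2
      have h3 : σ d * a = a * σ d := by
        rw [he]
        exact hinvc a _ (hmulc a c d h1 h2)
      exact hclos (fun x => x * a = a * x) h1 h2 h3 (by simp) (hmulc a) (hinvc a)
    have hallc := hcl c rfl hcd.symm
    have halld := hcl d hcd rfl
    intro a ha b hb
    exact hcl b (hallc b hb).symm (halld b hb).symm a ha
  -- (7)
  have hm2' : 2 < m := lt_of_le_of_ne hmP.two_le (Ne.symm hm2)
  have hcm : c ^ m = 1 := by
    set a : MulAut W := y⁻¹ with ha
    set b : MulAut W := σ y with hb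
    have haM : a ∈ M := M.inv_mem hy
    have hbM : b ∈ M := hσM y hy
    set e : MulAut W := b⁻¹ * a⁻¹ * b * a with he
    have heM' : e ∈ ⁅M, M⁆ := by
      have h := commutator_mem_commutator (M.inv_mem hbM) (M.inv_mem haM)
      rw [commutatorElement_def, inv_inv, inv_inv] at h
      exact h
    have hba : b * a = a * b * e := by rw [he]; group
    have hae : a * e = e * a := hcent e heM' a haM
    have hbe : b * e = e * b := hcent e heM' b hbM
    have hbm : b ^ m = y ^ m := by rw [hb, ← map_pow, hv]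
    have ham : a ^ m = (b ^ m)⁻¹ := by rw [hbm, ha, inv_pow]
    have h1 := mul_pow_class2 a b e hba hae hbe m
    have h2 := (pow_comm_class2 a b e hba hae hbe m).2
    have hem : e ^ m = 1 := by
      have h3 : b * a ^ m = a ^ m * b := by
        rw [ham]
        calc b * (b ^ m)⁻¹ = (b ^ m)⁻¹ * (b ^ m * b) * (b ^ m)⁻¹ := by group
          _ = (b ^ m)⁻¹ * (b * b ^ m) * (b ^ m)⁻¹ := by rw [← pow_succ, ← pow_succ']
          _ = (b ^ m)⁻¹ * b := by group
      rw [h3] at h2
      exact (mul_eq_left.mp h2.symm)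
    obtain ⟨q, hq⟩ := hmP.dvd_choose_self (by norm_num : (2 : ℕ) ≠ 0) hm2'
    rw [hq, pow_mul, hem, one_pow, mul_one, ham, inv_mul_cancel] at h1
    exact h1
  -- (8)
  have hcz : c * z = z * c := hcent z hzM' c hcM
  have hdz : d * z = z * d := hcent z hzM' d hdM
  have hzm : z ^ m = 1 := by
    have hba : c * d = d * c * z := by
      calc c * d = d * (d⁻¹ * c * d) := by group
        _ = d * c * z := by rw [hconj]; group
    have h1 := (pow_comm_class2 d c z hba hdz hcz m).1
    rw [hcm, one_mul, mul_one] at h1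
    exact (mul_eq_left.mp h1.symm)
  -- (9)
  apply hz1
  refine el3_final c z d hmP hcm hzm hcz hdz hconj hcop (fixedSub M) hX ?_ ?_
  · intro w hw
    exact (mem_fixedSub M).mp hw z (hM'le hzM')
  · intro w
    constructor
    · intro hw
      rw [(mem_fixedSub M).mp hw d hdM]
      exact hw
    · intro hw
      have h1 := (mem_fixedSub M).mp hw d⁻¹ (M.inv_mem hdM)
      rw [MulAut.inv_apply_self] at h1
      rw [h1]
      exact hw

theorem el3 (g : MulAut W) (hg : ∀ w, w * g w * g (g w) = 1) {m : ℕ} (hmP : m.Prime)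
    (hm2 : m ≠ 2) (hm3 : m ≠ 3) (M : Subgroup (MulAut W)) (hM : IsPGroup m M)
    (hgM : ∀ x ∈ M, g * x * g⁻¹ ∈ M) (hcop : ¬ m ∣ Nat.card W) : ∀ x ∈ M, g * x = x * g := by
  suffices H : ∀ n : ℕ, ∀ M : Subgroup (MulAut W), Nat.card M = n → IsPGroup m M →
      (∀ x ∈ M, g * x * g⁻¹ ∈ M) → ∀ x ∈ M, g * x = x * g from H _ M rfl hM hgM
  intro n
  induction n using Nat.strong_induction_on with
  | _ n ihn =>
  intro M hn hM hgM
  refine el3_min g hg hmP hm2 hm3 M hM hgM hcop ?_
  intro M₀ hlt hinv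
  refine ihn (Nat.card M₀) ?_ M₀ rfl (hM.to_le hlt.le) hinv
  rw [← hn]
  by_contra hge
  exact hlt.ne (Subgroup.eq_of_le_of_card_ge hlt.le (not_lt.mp hge))

end Cfsg.Agent.Lib.Helper71.S3
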