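import Mathlib
import Cfsg.Agent.Lib.Helper71.S3.Defs
import Cfsg.Agent.Lib.Helper71.S3.EL3

/-!
# Piece C: nilpotent normal subgroups of Gam have order prime to |W|, and are centralized by s in type I
-/

set_option autoImplicit false

namespace Cfsg.Agent.Lib.Helper71.S3

open Subgroup Cfsg.Agent.Lib.Helper22 Cfsg.Agent.Lib.Helper88

/-- the Sylow `m`-subgroup of a nilpotent subgroup consists of its `m`-elements -/
theorem exists_sylow_nilp {Γ : Type*} [Group Γ] [Finite Γ] (N : Subgroup Γ)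
    (hnil : Group.IsNilpotent N) (m : ℕ) [Fact m.Prime] :
    ∃ M : Subgroup Γ, IsPGroup m M ∧ ∀ x, x ∈ M ↔ x ∈ N ∧ ∃ k : ℕ, x ^ (m ^ k) = 1 := by
  obtain ⟨P⟩ : Nonempty (Sylow m N) := inferInstance
  have hPn : (P : Subgroup N).Normal := inferInstance
  refine ⟨(P : Subgroup N).map N.subtype, P.isPGroup'.map N.subtype, fun x => ⟨?_, ?_⟩⟩
  · rintro ⟨y, hy, rfl⟩
    refine ⟨y.2, ?_⟩
    obtain ⟨k, hk⟩ := P.isPGroup' ⟨y, hy⟩
    refine ⟨k, ?_⟩
    have := congrArg (fun z : (P : Subgroup N) => ((z : N) : Γ)) hk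
    simpa using this
  · rintro ⟨hx, k, hk⟩
    have hT : IsPGroup m (Subgroup.zpowers (⟨x, hx⟩ : N)) := by
      rintro ⟨g, n, rfl⟩
      refine ⟨k, ?_⟩
      apply Subtype.ext
      apply Subtype.ext
      show (x ^ n) ^ (m ^ k) = 1
      rw [← zpow_natCast, ← zpow_mul, mul_comm, zpow_mul, zpow_natCast, hk, one_zpow]
    obtain ⟨Q, hQ⟩ := hT.exists_le_sylow
    have hu := Sylow.unique_of_normal P hPn
    have hQP : Q = P := Subsingleton.elim _ _
    exact ⟨⟨x, hx⟩, hQP ▸ hQ (mem_zpowers _), rfl⟩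

variable {W : Type*} [CommGroup W] [Finite W]

variable {r : ℕ} {H : Subgroup (MulAut W)} {s t : MulAut W}

theorem card_W_eq (hM : Mod r H s t) : ∃ n : ℕ, n ≠ 0 ∧ Nat.card W = r ^ n := by
  haveI : Fact r.Prime := ⟨hM.rP⟩
  have hWp : IsPGroup r W := fun w => ⟨1, by rw [pow_one]; exact hM.expW w⟩
  obtain ⟨n, hn⟩ := hWp.exists_card_eq
  refine ⟨n, ?_, hn⟩
  rintro rfl
  rw [pow_zero] at hn
  obtain ⟨w, hw⟩ := hM.ntW
  haveI : Nontrivial W := ⟨⟨w, 1, hw⟩⟩
  have := Finite.one_lt_card (α := W)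
  omega

theorem rgroup_eq_bot (hM : Mod r H s t) (R : Subgroup (MulAut W))
    (hR : ∀ g ∈ Gam H s t, ∀ x ∈ R, g * x * g⁻¹ ∈ R) (hRr : IsPGroup r R) : R = ⊥ := by
  haveI : Fact r.Prime := ⟨hM.rP⟩
  obtain ⟨n, hn0, hn⟩ := card_W_eq hM
  have hne : fixedSub R ≠ ⊥ := by
    intro hbot
    have hdvd : r ∣ Nat.card W := by rw [hn]; exact dvd_pow_self r hn0
    have h1 : (1 : W) ∈ MulAction.fixedPoints R W := by
      intro ρ
      exact map_one (ρ : MulAut W)
    obtain ⟨v, hv, hv1⟩ := hRr.exists_fixed_point_of_prime_dvd_card_of_fixed_point W hdvd h1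
    apply hv1
    have : v ∈ fixedSub R := by
      rw [mem_fixedSub]
      intro ρ hρ
      exact hv ⟨ρ, hρ⟩
    rw [hbot, mem_bot] at this
    exact this.symm
  rcases hM.irr (fixedSub R) (fun g hg u hu => by
    rw [mem_fixedSub] at hu ⊢
    intro ρ hρ
    have h1 : g⁻¹ * ρ * g⁻¹⁻¹ ∈ R := hR g⁻¹ (inv_mem hg) ρ hρ
    have h2 := hu _ h1
    rw [inv_inv] at h2
    have h3 : g ((g⁻¹ * ρ * g) u) = g u := by rw [h2]
    simpa [MulAut.mul_apply] using h3) with h | h
  · exact absurd h hne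
  · rw [eq_bot_iff]
    intro z hz
    rw [Subgroup.mem_bot]
    ext w
    have : w ∈ fixedSub R := by rw [h]; exact Subgroup.mem_top w
    exact this z hz

theorem cop_of_nilpotent (hM : Mod r H s t) (N : Subgroup (MulAut W))
    (hN : ∀ g ∈ Gam H s t, ∀ x ∈ N, g * x * g⁻¹ ∈ N) (hnil : Group.IsNilpotent N) :
    (Nat.card N).Coprime (Nat.card W) := by
  haveI : Fact r.Prime := ⟨hM.rP⟩
  obtain ⟨n, hn0, hn⟩ := card_W_eq hM
  rw [hn]
  apply Nat.Coprime.pow_right
  rw [Nat.coprime_comm, hM.rP.coprime_iff_not_dvd]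
  intro hdvd
  obtain ⟨R, hRr, hRmem⟩ := exists_sylow_nilp N hnil r
  have hbot : R = ⊥ := by
    refine rgroup_eq_bot hM R ?_ hRr
    intro g hg x hx
    rw [hRmem] at hx ⊢
    obtain ⟨hxN, k, hk⟩ := hx
    refine ⟨hN g hg x hxN, k, ?_⟩
    rw [conj_pow, hk, mul_one, mul_inv_cancel]
  obtain ⟨x, hx⟩ := exists_prime_orderOf_dvd_card' r hdvd
  have hxR : (x : MulAut W) ∈ R := by
    rw [hRmem]
    refine ⟨x.2, 1, ?_⟩
    rw [pow_one, ← hx, ← Subgroup.orderOf_coe, pow_orderOf_eq_one]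
  rw [hbot, mem_bot] at hxR
  have : x = 1 := Subtype.ext hxR
  rw [this, orderOf_one] at hx
  exact hM.rP.one_lt.ne hx

theorem centralizes_nilpotent (hM : Mod r H s t) (hI : ∀ w : W, s w = w → w = 1)
    (N : Subgroup (MulAut W)) (hNH : N ≤ H)
    (hN : ∀ g ∈ Gam H s t, ∀ x ∈ N, g * x * g⁻¹ ∈ N) (hnil : Group.IsNilpotent N) :
    ∀ x ∈ N, s * x = x * s := by
  have hg : ∀ w, w * s w * s (s w) = 1 := by
    intro w
    apply hI
    have h3 : s (s (s w)) = w := by
      have := congrArg (fun f : MulAut W => f w) hM.rel.s3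
      simpa [pow_succ, MulAut.mul_apply] using this
    rw [map_mul, map_mul, h3, mul_comm, mul_assoc]
  have hcopN := cop_of_nilpotent hM N hN hnil
  have hcardNH : Nat.card N ∣ Nat.card H := Subgroup.card_dvd_of_le hNH
  have key : ∀ n : ℕ, n ≠ 0 → ∀ x ∈ N, x ^ n = 1 → s * x = x * s := by
    intro n
    induction n using Nat.recOnPosPrimePosCoprime with
    | zero => intro h; exact absurd rfl h
    | one =>
      intro _ x _ hx
      rw [pow_one] at hx
      rw [hx, mul_one, one_mul]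
    | prime_pow m k hmP hk =>
      intro _ x hxN hx
      by_cases hx1 : x = 1
      · rw [hx1, mul_one, one_mul]
      haveI : Fact m.Prime := ⟨hmP⟩
      have hmN : m ∣ Nat.card N := by
        have h1 : orderOf x ∣ m ^ k := orderOf_dvd_of_pow_eq_one hx
        obtain ⟨j, _, hj⟩ := (Nat.dvd_prime_pow hmP).mp h1
        have hj0 : j ≠ 0 := by
          rintro rfl
          rw [pow_zero, orderOf_eq_one_iff] at hj
          exact hx1 hj
        have h2 : orderOf x ∣ Nat.card N := by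
          have := orderOf_dvd_natCard (⟨x, hxN⟩ : N)
          rwa [Subgroup.orderOf_mk] at this
        exact (dvd_pow_self m hj0).trans (hj ▸ h2)
      have hmH : m ∣ Nat.card H := hmN.trans hcardNH
      have hm2 : m ≠ 2 := by
        rintro rfl
        have := Nat.dvd_gcd hmH (by norm_num : 2 ∣ 6)
        rw [hM.copH] at this
        omega
      have hm3 : m ≠ 3 := by
        rintro rfl
        have := Nat.dvd_gcd hmH (by norm_num : 3 ∣ 6)
        rw [hM.copH] at this
        omega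
      have hmW : ¬ m ∣ Nat.card W := by
        intro h
        have := Nat.dvd_gcd hmN h
        rw [hcopN] at this
        exact hmP.one_lt.ne' (Nat.dvd_one.mp this)
      obtain ⟨M, hMm, hMmem⟩ := exists_sylow_nilp N hnil m
      refine el3 s hg hmP hm2 hm3 M hMm ?_ hmW x ((hMmem x).mpr ⟨hxN, k, hx⟩)
      intro y hy
      rw [hMmem] at hy ⊢
      obtain ⟨hyN, j, hj⟩ := hy
      refine ⟨hN s (s_mem_Gam H s t) y hyN, j, ?_⟩
      rw [conj_pow, hj, mul_one, mul_inv_cancel]
    | coprime a b ha hb hab iha ihb =>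
      intro _ x hxN hx
      have h1 : s * x ^ a = x ^ a * s :=
        ihb (by omega) (x ^ a) (pow_mem hxN a) (by rw [← pow_mul, hx])
      have h2 : s * x ^ b = x ^ b * s :=
        iha (by omega) (x ^ b) (pow_mem hxN b) (by rw [← pow_mul, mul_comm, hx])
      have h3 : x = (x ^ a) ^ (Nat.gcdA a b) * (x ^ b) ^ (Nat.gcdB a b) := by
        rw [← zpow_natCast x a, ← zpow_natCast x b, ← zpow_mul, ← zpow_mul, ← zpow_add,
          ← Nat.gcd_eq_gcd_ab, hab]
        simp
      have c1 : Commute s (x ^ a) := h1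
      have c2 : Commute s (x ^ b) := h2
      have c3 : Commute s x := by
        rw [h3]
        exact (c1.zpow_right _).mul_right (c2.zpow_right _)
      exact c3
  intro x hx
  exact key (orderOf x) (orderOf_pos x).ne' x hx (pow_orderOf_eq_one x)

end Cfsg.Agent.Lib.Helper71.S3
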