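import Mathlib
import Cfsg.Agent.Lib.Helper71.S3.Defs
import Cfsg.Agent.Lib.Helper71.S3.Cop

/-!
# Piece Z: Z := ⁅H,H⁆ ⊓ centralizer ⁅H,H⁆  (the centre of H')
-/

set_option autoImplicit false

namespace Cfsg.Agent.Lib.Helper71.S3

open Subgroup Cfsg.Agent.Lib.Helper22 Cfsg.Agent.Lib.Helper88
open scoped commutatorElement

/-- conjugation invariance passes to the commutator subgroup -/
theorem comm_invariant {Γ : Type*} [Group Γ] {A B : Subgroup Γ} {g : Γ}
    (hA : ∀ x ∈ A, g * x * g⁻¹ ∈ A) (hB : ∀ x ∈ B, g * x * g⁻¹ ∈ B) :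
    ∀ x ∈ ⁅A, B⁆, g * x * g⁻¹ ∈ ⁅A, B⁆ := by
  have h : ⁅A, B⁆ ≤ (⁅A, B⁆).comap (MulAut.conj g).toMonoidHom := by
    rw [commutator_le]
    intro a ha b hb
    rw [mem_comap]
    have : (MulAut.conj g).toMonoidHom ⁅a, b⁆ = ⁅g * a * g⁻¹, g * b * g⁻¹⁆ := by
      simp only [MulEquiv.coe_toMonoidHom, MulAut.conj_apply, commutatorElement_def]
      group
    rw [this]
    exact commutator_mem_commutator (hA a ha) (hB b hb)
  intro x hx
  exact h hx

/-- conjugation invariance (both ways) passes to the centralizer -/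
theorem centralizer_invariant {Γ : Type*} [Group Γ] {A : Subgroup Γ} {g : Γ}
    (hA : ∀ x ∈ A, g⁻¹ * x * g ∈ A) :
    ∀ x ∈ centralizer (A : Set Γ), g * x * g⁻¹ ∈ centralizer (A : Set Γ) := by
  intro x hx
  rw [mem_centralizer_iff] at hx ⊢
  intro a ha
  have h1 := hx _ (hA a ha)
  calc a * (g * x * g⁻¹) = g * ((g⁻¹ * a * g) * x) * g⁻¹ := by group
    _ = g * (x * (g⁻¹ * a * g)) * g⁻¹ := by rw [h1]
    _ = g * x * g⁻¹ * a := by group

theorem comm_self_le {Γ : Type*} [Group Γ] (A : Subgroup Γ) : ⁅A, A⁆ ≤ A := by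
  rw [commutator_le]
  intro a ha b hb
  rw [commutatorElement_def]
  exact A.mul_mem (A.mul_mem (A.mul_mem ha hb) (A.inv_mem ha)) (A.inv_mem hb)

variable {W : Type*} [CommGroup W] [Finite W]

variable {r : ℕ} {H : Subgroup (MulAut W)} {s t : MulAut W}

theorem Mod.D_normalized (hM : Mod r H s t) :
    ∀ g ∈ Gam H s t, ∀ x ∈ ⁅H, H⁆, g * x * g⁻¹ ∈ ⁅H, H⁆ := fun g hg =>
  comm_invariant (hM.H_normalized g hg) (hM.H_normalized g hg)

theorem Mod.CD_normalized (hM : Mod r H s t) :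
    ∀ g ∈ Gam H s t, ∀ x ∈ centralizer ((⁅H, H⁆ : Subgroup (MulAut W)) : Set (MulAut W)),
      g * x * g⁻¹ ∈ centralizer ((⁅H, H⁆ : Subgroup (MulAut W)) : Set (MulAut W)) := fun g hg =>
  centralizer_invariant (fun x hx => by
    have := hM.D_normalized g⁻¹ (inv_mem hg) x hx
    rwa [inv_inv] at this)

theorem exists_Z (hM : Mod r H s t) (hnil : Group.IsNilpotent ↥⁅H, H⁆) (hne : ⁅H, H⁆ ≠ ⊥) :
    ∃ Z : Subgroup (MulAut W), ZHyp H Z s t := by
  set D : Subgroup (MulAut W) := ⁅H, H⁆ with hD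
  have hcomm : ∀ x ∈ D ⊓ centralizer (D : Set (MulAut W)),
      ∀ y ∈ D ⊓ centralizer (D : Set (MulAut W)), x * y = y * x := by
    intro x hx y hy
    exact (mem_centralizer_iff.mp hy.2) x hx.1
  have hnorm : ∀ g ∈ Gam H s t, ∀ z ∈ D ⊓ centralizer (D : Set (MulAut W)),
      g * z * g⁻¹ ∈ D ⊓ centralizer (D : Set (MulAut W)) := fun g hg z hz =>
    ⟨hM.D_normalized g hg z hz.1, hM.CD_normalized g hg z hz.2⟩
  refine ⟨D ⊓ centralizer (D : Set (MulAut W)), inf_le_left.trans (comm_self_le H), ?_, hcomm,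
    hnorm, ?_⟩
  · have hnt : Nontrivial D := (nontrivial_iff_ne_bot D).mpr hne
    have hc := Group.IsNilpotent.center_ne_bot (G := D)
    obtain ⟨⟨z, hz⟩, hz1⟩ := ne_bot_iff_exists_ne_one.1 hc
    intro hbot
    apply hz1
    have hzm : (z : MulAut W) ∈ D ⊓ centralizer (D : Set (MulAut W)) := by
      refine ⟨z.2, ?_⟩
      show (z : MulAut W) ∈ centralizer (D : Set (MulAut W))
      rw [mem_centralizer_iff]
      intro a ha
      have := (mem_center_iff.mp hz) ⟨a, ha⟩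
      exact congrArg Subtype.val this
    rw [hbot, mem_bot] at hzm
    apply Subtype.ext
    apply Subtype.ext
    exact hzm
  · refine cop_of_nilpotent hM _ hnorm ?_
    have : IsMulCommutative ↥(D ⊓ centralizer (D : Set (MulAut W))) :=
      ⟨⟨fun a b => Subtype.ext (hcomm a a.2 b b.2)⟩⟩
    letI : CommGroup ↥(D ⊓ centralizer (D : Set (MulAut W))) :=
      { (inferInstance : Group ↥(D ⊓ centralizer (D : Set (MulAut W)))) with
        mul_comm := fun a b => Subtype.ext (hcomm a a.2 b b.2) }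
    exact CommGroup.isNilpotent

end Cfsg.Agent.Lib.Helper71.S3
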