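import Mathlib
import Cfsg.Agent.Lib.Helper71.S3.Defs

/-!
# Piece T2a: a pure group lemma
-/

set_option autoImplicit false

namespace Cfsg.Agent.Lib.Helper71.S3

open Subgroup Cfsg.Agent.Lib.Helper22

theorem mem_of_pow_mem' {Γ : Type*} [Group Γ] {H K : Subgroup Γ} [Finite H] {x : Γ} (hx : x ∈ H)
    {k : ℕ} (hk : k.Coprime (Nat.card H)) (h : x ^ k ∈ K) : x ∈ K := by
  have h1 : orderOf x ∣ Nat.card H := by
    have := orderOf_dvd_natCard (⟨x, hx⟩ : H)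
    rwa [Subgroup.orderOf_mk] at this
  obtain ⟨m, hm⟩ := exists_pow_eq_self_of_coprime (Nat.Coprime.coprime_dvd_right h1 hk)
  rw [← hm]
  exact pow_mem h m

/-- fixed point free element: every element is a commutator -/
theorem exists_comm_eq' {Γ : Type*} [Group Γ] (S : Subgroup Γ) [Finite S] (b : Γ)
    (hb : ∀ x ∈ S, b * x * b⁻¹ ∈ S) (hfix : ∀ x ∈ S, b * x = x * b → x = 1) (t : Γ) (ht : t ∈ S) :
    ∃ t' ∈ S, t = t' * b * t'⁻¹ * b⁻¹ := by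
  let φ : S → S := fun t' => ⟨t' * b * (t' : Γ)⁻¹ * b⁻¹, by
    have h1 := hb _ (inv_mem t'.2)
    have h2 := mul_mem t'.2 h1
    have : (t' : Γ) * b * (t' : Γ)⁻¹ * b⁻¹ = t' * (b * (t' : Γ)⁻¹ * b⁻¹) := by group
    rw [this]; exact h2⟩
  have hinj : Function.Injective φ := by
    intro x y hxy
    have h1 : (x : Γ) * b * (x : Γ)⁻¹ * b⁻¹ = y * b * (y : Γ)⁻¹ * b⁻¹ := congrArg Subtype.val hxy
    have h3 : (x : Γ) * b * (x : Γ)⁻¹ = y * b * (y : Γ)⁻¹ := mul_right_cancel h1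
    have h2 : (y : Γ)⁻¹ * x = 1 := by
      refine hfix _ (mul_mem (inv_mem y.2) x.2) ?_
      calc b * ((y : Γ)⁻¹ * x) = (y : Γ)⁻¹ * (y * b * (y : Γ)⁻¹) * x := by group
        _ = (y : Γ)⁻¹ * (x * b * (x : Γ)⁻¹) * x := by rw [h3]
        _ = (y : Γ)⁻¹ * x * b := by group
    rw [inv_mul_eq_one] at h2
    exact Subtype.ext h2.symm
  obtain ⟨t', ht'⟩ := (Finite.injective_iff_surjective.mp hinj) ⟨t, ht⟩
  exact ⟨t', t'.2, (congrArg Subtype.val ht').symm⟩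

theorem abelian_of_three {Γ : Type*} [Group Γ] (H : Subgroup Γ) [Finite H] (s t : Γ) (rel : Rel s t)
    (sH : ∀ h ∈ H, s * h * s⁻¹ ∈ H) (tH : ∀ h ∈ H, t * h * t⁻¹ ∈ H)
    (cop : (Nat.card H).Coprime 6)
    (fixH : ∀ h ∈ H, s * h = h * s → t * h = h * t → h = 1)
    (H0 : Subgroup Γ) (h0H : H0 ≤ H) (hn : ∀ h ∈ H, ∀ x ∈ H0, h * x * h⁻¹ ∈ H0)
    (ht : ∀ h ∈ H, h⁻¹ * (t * h * t⁻¹) ∈ H0)
    (hint : ∀ x, x ∈ H0 → s * x * s⁻¹ ∈ H0 → s⁻¹ * x * s ∈ H0 → x = 1) :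
    ∀ a ∈ H, ∀ b ∈ H, a * b = b * a := by
  have tinv : t⁻¹ = t := rel.t_inv
  have ss : s * s = s⁻¹ := by rw [rel.s_inv, sq]
  have ss' : s⁻¹ * s⁻¹ = s := by rw [← mul_inv_rev, ss, inv_inv]
  have cop2 : (2 : ℕ).Coprime (Nat.card H) :=
    (Nat.Coprime.coprime_dvd_right (by norm_num : 2 ∣ 6) cop).symm
  have cop3 : (3 : ℕ).Coprime (Nat.card H) :=
    (Nat.Coprime.coprime_dvd_right (by norm_num : 3 ∣ 6) cop).symm
  have sH' : ∀ h ∈ H, s⁻¹ * h * s ∈ H := by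
    intro h hh
    have h1 := sH _ (sH h hh)
    have e : s * (s * h * s⁻¹) * s⁻¹ = s⁻¹ * h * s := by
      calc s * (s * h * s⁻¹) * s⁻¹ = (s * s) * h * (s⁻¹ * s⁻¹) := by group
        _ = s⁻¹ * h * s := by rw [ss, ss']
    rwa [e] at h1
  have ts : t * s⁻¹ * t⁻¹ = s := by
    have := congrArg (fun x => x⁻¹) rel.rel
    simpa [mul_assoc] using this
  -- (i)
  have hi : ∀ h ∈ H, s * h = h * s → h = 1 := by
    let C : Subgroup Γ := H ⊓ centralizer {s}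
    have : Finite C := Finite.of_injective _ (inclusion_injective (inf_le_left : C ≤ H))
    have hmemC : ∀ x, x ∈ C ↔ x ∈ H ∧ s * x = x * s := by
      intro x
      rw [mem_inf, mem_centralizer_singleton_iff]
      exact and_congr_right (fun _ => eq_comm)
    have htC : ∀ x ∈ C, t * x * t⁻¹ ∈ C := by
      intro x hx
      rw [hmemC] at hx ⊢
      refine ⟨tH x hx.1, ?_⟩
      have h1 : s⁻¹ * x = x * s⁻¹ := by
        rw [inv_mul_eq_iff_eq_mul, ← mul_assoc, hx.2, mul_inv_cancel_right]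
      calc s * (t * x * t⁻¹) = (t * s⁻¹ * t⁻¹) * (t * x * t⁻¹) := by rw [ts]
        _ = t * (s⁻¹ * x) * t⁻¹ := by group
        _ = t * (x * s⁻¹) * t⁻¹ := by rw [h1]
        _ = (t * x * t⁻¹) * (t * s⁻¹ * t⁻¹) := by group
        _ = t * x * t⁻¹ * s := by rw [ts]
    intro h hh hsh
    have hhC : h ∈ C := (hmemC h).mpr ⟨hh, hsh⟩
    obtain ⟨x, hx, hxe⟩ := exists_comm_eq' C t htC
      (fun y hy hty => fixH y ((hmemC y).mp hy).1 ((hmemC y).mp hy).2 hty) h hhC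
    have tt : t * t = 1 := by rw [← sq, rel.t2]
    have hinv : t * h * t⁻¹ = h⁻¹ := by
      rw [hxe, tinv]
      apply eq_inv_of_mul_eq_one_left
      calc t * (x * t * x⁻¹ * t) * t * (x * t * x⁻¹ * t)
          = t * x * t * x⁻¹ * (t * t) * x * t * x⁻¹ * t := by group
        _ = t * x * t * x⁻¹ * 1 * x * t * x⁻¹ * t := by rw [tt]
        _ = t * x * (t * t) * x⁻¹ * t := by group
        _ = t * x * 1 * x⁻¹ * t := by rw [tt]
        _ = t * t := by group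
        _ = 1 := tt
    have h2 := ht h hh
    rw [hinv, ← mul_inv_rev, ← sq] at h2
    have h3 : h ∈ H0 := mem_of_pow_mem' hh cop2 (by simpa using inv_mem h2)
    refine hint h h3 ?_ ?_
    · rw [hsh, mul_inv_cancel_right]; exact h3
    · rw [mul_assoc, ← hsh, inv_mul_cancel_left]; exact h3
  -- (ii)
  have hii : ∀ h ∈ H, h * (s * h * s⁻¹) * (s⁻¹ * h * s) = 1 := by
    intro h hh
    obtain ⟨x, hx, rfl⟩ := exists_comm_eq' H s sH hi h hh
    calc x * s * x⁻¹ * s⁻¹ * (s * (x * s * x⁻¹ * s⁻¹) * s⁻¹) * (s⁻¹ * (x * s * x⁻¹ * s⁻¹) * s)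
        = x * (s * s) * x⁻¹ * (s⁻¹ * s⁻¹ * s⁻¹) * x * s * x⁻¹ := by group
      _ = x * s⁻¹ * x⁻¹ * (s * s⁻¹) * x * s * x⁻¹ := by rw [ss, ss']
      _ = 1 := by group
  -- (iii)
  have hP : ∀ x ∈ H0, s⁻¹ * x * s ∈ H0 → x = 1 := by
    intro x hx hx'
    refine hint x hx ?_ hx'
    have h1 := hii _ (h0H hx')
    have e1 : s * (s⁻¹ * x * s) * s⁻¹ = x := by group
    have e2 : s⁻¹ * (s⁻¹ * x * s) * s = s * x * s⁻¹ := by
      calc s⁻¹ * (s⁻¹ * x * s) * s = (s⁻¹ * s⁻¹) * x * (s * s) := by group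
        _ = s * x * s⁻¹ := by rw [ss, ss']
    rw [e1, e2] at h1
    have h2 : s * x * s⁻¹ = (s⁻¹ * x * s * x)⁻¹ := eq_inv_of_mul_eq_one_right h1
    rw [h2]
    exact inv_mem (mul_mem hx' hx)
  have hP' : ∀ x ∈ H0, s * x * s⁻¹ ∈ H0 → x = 1 := by
    intro x hx hx'
    refine hint x hx hx' ?_
    have h1 := hii _ (h0H hx)
    have h2 : s⁻¹ * x * s = (x * (s * x * s⁻¹))⁻¹ := eq_inv_of_mul_eq_one_right h1
    rw [h2]
    exact inv_mem (mul_mem hx hx')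
  -- the three subgroups
  set N1 : Subgroup Γ := conjS s H0 with hN1
  set N2 : Subgroup Γ := conjS s⁻¹ H0 with hN2
  have m1 : ∀ x, x ∈ N1 ↔ s⁻¹ * x * s ∈ H0 := fun x => mem_conjS
  have m2 : ∀ x, x ∈ N2 ↔ s * x * s⁻¹ ∈ H0 := fun x => by
    rw [hN2, mem_conjS, inv_inv]
  have N1H : N1 ≤ H := by
    intro x hx
    have h1 := sH _ (h0H ((m1 x).mp hx))
    have e : s * (s⁻¹ * x * s) * s⁻¹ = x := by group
    rwa [e] at h1
  have N2H : N2 ≤ H := by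
    intro x hx
    have h1 := sH' _ (h0H ((m2 x).mp hx))
    have e : s⁻¹ * (s * x * s⁻¹) * s = x := by group
    rwa [e] at h1
  have n1 : ∀ h ∈ H, ∀ x ∈ N1, h * x * h⁻¹ ∈ N1 := by
    intro h hh x hx
    rw [m1] at hx ⊢
    have h1 := hn _ (sH' h hh) _ hx
    have e : s⁻¹ * h * s * (s⁻¹ * x * s) * (s⁻¹ * h * s)⁻¹ = s⁻¹ * (h * x * h⁻¹) * s := by group
    rwa [e] at h1
  have n2 : ∀ h ∈ H, ∀ x ∈ N2, h * x * h⁻¹ ∈ N2 := by
    intro h hh x hx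
    rw [m2] at hx ⊢
    have h1 := hn _ (sH h hh) _ hx
    have e : s * h * s⁻¹ * (s * x * s⁻¹) * (s * h * s⁻¹)⁻¹ = s * (h * x * h⁻¹) * s⁻¹ := by group
    rwa [e] at h1
  have comm_of : ∀ (A B : Subgroup Γ), A ≤ H → B ≤ H → (∀ h ∈ H, ∀ x ∈ A, h * x * h⁻¹ ∈ A) →
      (∀ h ∈ H, ∀ x ∈ B, h * x * h⁻¹ ∈ B) → (∀ x, x ∈ A → x ∈ B → x = 1) →
      ∀ a ∈ A, ∀ b ∈ B, a * b = b * a := by
    intro A B hA hB nA nB hAB a ha b hb
    have h1 : a * b * a⁻¹ * b⁻¹ ∈ A := by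
      have := mul_mem ha (nA b (hB hb) _ (inv_mem ha))
      have e : a * (b * a⁻¹ * b⁻¹) = a * b * a⁻¹ * b⁻¹ := by group
      rwa [e] at this
    have h2 : a * b * a⁻¹ * b⁻¹ ∈ B := mul_mem (nB a (hA ha) _ hb) (inv_mem hb)
    have h3 := hAB _ h1 h2
    calc a * b = (a * b * a⁻¹ * b⁻¹) * (b * a) := by group
      _ = b * a := by rw [h3, one_mul]
  have c01 : ∀ a ∈ H0, ∀ b ∈ N1, a * b = b * a :=
    comm_of H0 N1 h0H N1H hn n1 (fun x hx hx' => hP x hx ((m1 x).mp hx'))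
  have c02 : ∀ a ∈ H0, ∀ b ∈ N2, a * b = b * a :=
    comm_of H0 N2 h0H N2H hn n2 (fun x hx hx' => hP' x hx ((m2 x).mp hx'))
  have c12 : ∀ a ∈ N1, ∀ b ∈ N2, a * b = b * a := by
    refine comm_of N1 N2 N1H N2H n1 n2 (fun x hx hx' => ?_)
    rw [m1] at hx
    rw [m2] at hx'
    have e : s⁻¹ * (s⁻¹ * x * s) * s = s * x * s⁻¹ := by
      calc s⁻¹ * (s⁻¹ * x * s) * s = (s⁻¹ * s⁻¹) * x * (s * s) := by group
        _ = s * x * s⁻¹ := by rw [ss, ss']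
    have h1 := hP _ hx (by rw [e]; exact hx')
    calc x = s * (s⁻¹ * x * s) * s⁻¹ := by group
      _ = 1 := by rw [h1]; group
  have c00 : ∀ a ∈ H0, ∀ d ∈ H0, a * d = d * a := by
    intro a ha d hd
    have h1 := hii d (h0H hd)
    have hd1 : s * d * s⁻¹ ∈ N1 := by
      rw [m1]
      have e : s⁻¹ * (s * d * s⁻¹) * s = d := by group
      rw [e]; exact hd
    have hd2 : s⁻¹ * d * s ∈ N2 := by
      rw [m2]
      have e : s * (s⁻¹ * d * s) * s⁻¹ = d := by group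
      rw [e]; exact hd
    have h2 : d = ((s * d * s⁻¹) * (s⁻¹ * d * s))⁻¹ := by
      apply eq_inv_of_mul_eq_one_left
      rw [← mul_assoc]; exact h1
    have h3 : a * ((s * d * s⁻¹) * (s⁻¹ * d * s)) = ((s * d * s⁻¹) * (s⁻¹ * d * s)) * a := by
      rw [← mul_assoc, c01 a ha _ hd1, mul_assoc (s * d * s⁻¹) a, c02 a ha _ hd2,
        ← mul_assoc (s * d * s⁻¹)]
    have h4 : Commute a ((s * d * s⁻¹) * (s⁻¹ * d * s))⁻¹ := (show Commute a _ from h3).inv_right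
    rw [← h2] at h4
    exact h4
  have c11 : ∀ a ∈ N1, ∀ b ∈ N1, a * b = b * a := by
    intro a ha b hb
    have h1 := c00 _ ((m1 a).mp ha) _ ((m1 b).mp hb)
    calc a * b = s * ((s⁻¹ * a * s) * (s⁻¹ * b * s)) * s⁻¹ := by group
      _ = s * ((s⁻¹ * b * s) * (s⁻¹ * a * s)) * s⁻¹ := by rw [h1]
      _ = b * a := by group
  have c22 : ∀ a ∈ N2, ∀ b ∈ N2, a * b = b * a := by
    intro a ha b hb
    have h1 := c00 _ ((m2 a).mp ha) _ ((m2 b).mp hb)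
    calc a * b = s⁻¹ * ((s * a * s⁻¹) * (s * b * s⁻¹)) * s := by group
      _ = s⁻¹ * ((s * b * s⁻¹) * (s * a * s⁻¹)) * s := by rw [h1]
      _ = b * a := by group
  set N : Subgroup Γ := H0 ⊔ N1 ⊔ N2 with hN
  have le0 : H0 ≤ N := le_sup_left.trans le_sup_left
  have le1 : N1 ≤ N := le_sup_right.trans le_sup_left
  have le2 : N2 ≤ N := le_sup_right
  -- `N` is commutative
  have hcen : ∀ (A : Subgroup Γ), (∀ a ∈ A, ∀ b ∈ H0, a * b = b * a) →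
      (∀ a ∈ A, ∀ b ∈ N1, a * b = b * a) → (∀ a ∈ A, ∀ b ∈ N2, a * b = b * a) →
      A ≤ centralizer (N : Set Γ) := by
    intro A h0 h1 h2
    rw [le_centralizer_iff]
    refine sup_le (sup_le ?_ ?_) ?_
    · intro b hb
      rw [mem_centralizer_iff]
      intro a ha
      exact h0 a ha b hb
    · intro b hb
      rw [mem_centralizer_iff]
      intro a ha
      exact h1 a ha b hb
    · intro b hb
      rw [mem_centralizer_iff]
      intro a ha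
      exact h2 a ha b hb
  have hNc : N ≤ centralizer (N : Set Γ) := by
    refine sup_le (sup_le ?_ ?_) ?_
    · exact hcen H0 c00 c01 c02
    · exact hcen N1 (fun a ha b hb => (c01 b hb a ha).symm) c11 c12
    · exact hcen N2 (fun a ha b hb => (c02 b hb a ha).symm) (fun a ha b hb => (c12 b hb a ha).symm) c22
  -- `N` is normalized by `H`
  have nN : ∀ h ∈ H, ∀ x ∈ N, h * x * h⁻¹ ∈ N := by
    intro h hh x hx
    have h1 : N ≤ N.comap (MulAut.conj h).toMonoidHom := by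
      refine sup_le (sup_le ?_ ?_) ?_
      · intro y hy; exact le0 (hn h hh y hy)
      · intro y hy; exact le1 (n1 h hh y hy)
      · intro y hy; exact le2 (n2 h hh y hy)
    exact h1 hx
  -- (vi)
  have hvi : ∀ h ∈ H, h⁻¹ * (s⁻¹ * h * s) ∈ N := by
    intro h hh
    have hk : t * h * t⁻¹ ∈ H := tH h hh
    have h1 : h⁻¹ * (t * h * t⁻¹) ∈ N := le0 (ht h hh)
    have h2 : (t * h * t⁻¹)⁻¹ * (s * t * s⁻¹ * (t * h * t⁻¹) * (s * t * s⁻¹)⁻¹) ∈ N := by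
      apply le1
      rw [m1]
      have h3 := ht _ (sH' _ hk)
      have e : s⁻¹ * ((t * h * t⁻¹)⁻¹ * (s * t * s⁻¹ * (t * h * t⁻¹) * (s * t * s⁻¹)⁻¹)) * s =
          (s⁻¹ * (t * h * t⁻¹) * s)⁻¹ * (t * (s⁻¹ * (t * h * t⁻¹) * s) * t⁻¹) := by group
      rw [e]; exact h3
    have h4 := mul_mem h1 h2
    have e1 : s * t * s⁻¹ * t = s⁻¹ := by
      calc s * t * s⁻¹ * t = s * (t * s⁻¹ * t⁻¹) := by rw [tinv]; group
        _ = s⁻¹ := by rw [ts, ss]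
    have e2 : h⁻¹ * (t * h * t⁻¹) * ((t * h * t⁻¹)⁻¹ *
        (s * t * s⁻¹ * (t * h * t⁻¹) * (s * t * s⁻¹)⁻¹)) =
        h⁻¹ * ((s * t * s⁻¹ * t) * h * (s * t * s⁻¹ * t)⁻¹) := by group
    rw [e2, e1, inv_inv] at h4
    exact h4
  have hHN : H ≤ N := by
    intro h hh
    refine mem_of_pow_mem' hh cop3 ?_
    have h1 := hii h hh
    have ha : s * h * s⁻¹ ∈ H := sH h hh
    have h2 := hvi _ ha
    have e : s⁻¹ * (s * h * s⁻¹) * s = h := by group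
    rw [e] at h2
    have h3 := hvi h hh
    -- h^3 = (h * a * b) * stuff
    have h5 : h⁻¹ * (s * h * s⁻¹) ∈ N := by
      have := inv_mem h2
      simpa [mul_assoc] using this
    -- 1 = h * (h * n1) * (h * n2)
    set u := h⁻¹ * (s * h * s⁻¹) with hu
    set v := h⁻¹ * (s⁻¹ * h * s) with hv
    have e3 : h * (s * h * s⁻¹) * (s⁻¹ * h * s) = h ^ 3 * ((h⁻¹ * u * h⁻¹⁻¹) * v) := by
      rw [hu, hv]; group
    rw [e3] at h1
    have h6 : h ^ 3 = ((h⁻¹ * u * h⁻¹⁻¹) * v)⁻¹ := eq_inv_of_mul_eq_one_left h1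
    rw [h6]
    exact inv_mem (mul_mem (nN _ (inv_mem hh) _ h5) h3)
  intro a ha b hb
  exact (mem_centralizer_iff.mp (hNc (hHN ha)) b (hHN hb)).symm

end Cfsg.Agent.Lib.Helper71.S3
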