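import Mathlib
import Cfsg.Agent.Lib.Helper71.S3.Defs
import Cfsg.Agent.Lib.Helper71.S3.Cop
import Cfsg.Agent.Lib.Helper71.S3.ExZ
import Cfsg.Agent.Lib.Helper71.S3.Three

/-!
# Piece T1: type I (C_W(s) = 1) implies H abelian
-/

set_option autoImplicit false

namespace Cfsg.Agent.Lib.Helper71.S3

open Subgroup Cfsg.Agent.Lib.Helper22 Cfsg.Agent.Lib.Helper88
open scoped commutatorElement

/-- a subgroup whose commutators are central in it is nilpotent -/
theorem nilpotent_of_class_two {Γ : Type*} [Group Γ] (C : Subgroup Γ)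
    (h : ∀ a ∈ C, ∀ b ∈ C, ∀ c ∈ C, c * (a * b * a⁻¹ * b⁻¹) = (a * b * a⁻¹ * b⁻¹) * c) :
    Group.IsNilpotent C := by
  rw [Subgroup.isNilpotent_iff_lowerCentralSeries]
  refine ⟨2, ?_⟩
  rw [Subgroup.lowerCentralSeries_succ, Subgroup.lowerCentralSeries_succ,
    Subgroup.lowerCentralSeries_zero,
    commutator_eq_bot_iff_le_centralizer, commutator_le]
  intro a ha b hb
  rw [mem_centralizer_iff]
  intro c hc
  exact h a ha b hb c hc

/-- a fixed point free involution forces commutativity -/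
theorem abelian_of_fpf_invol {Γ : Type*} [Group Γ] (H : Subgroup Γ) [Finite H] (t : Γ)
    (t2 : t ^ 2 = 1) (tH : ∀ h ∈ H, t * h * t⁻¹ ∈ H) (hfix : ∀ h ∈ H, t * h = h * t → h = 1) :
    ∀ a ∈ H, ∀ b ∈ H, a * b = b * a := by
  have tinv : t⁻¹ = t := by rw [inv_eq_iff_mul_eq_one, ← sq, t2]
  have tt : t * t = 1 := by rw [← sq, t2]
  have hinv : ∀ x ∈ H, t * x * t⁻¹ = x⁻¹ := by
    intro x hx
    obtain ⟨y, _, rfl⟩ := exists_comm_eq' H t tH hfix x hx
    rw [tinv]
    have e1 : (y * t * y⁻¹ * t)⁻¹ = t * y * t * y⁻¹ := by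
      rw [mul_inv_rev, mul_inv_rev, mul_inv_rev, inv_inv, tinv]
      group
    rw [e1]
    calc t * (y * t * y⁻¹ * t) * t = t * y * t * y⁻¹ * (t * t) := by group
      _ = t * y * t * y⁻¹ := by rw [tt, mul_one]
  intro a ha b hb
  have h1 := hinv (a * b) (mul_mem ha hb)
  have h2 : t * (a * b) * t⁻¹ = (t * a * t⁻¹) * (t * b * t⁻¹) := by group
  rw [h2, hinv a ha, hinv b hb, ← mul_inv_rev] at h1
  exact (inv_injective h1).symm

variable {W : Type*} [CommGroup W] [Finite W]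

variable {r : ℕ} {H : Subgroup (MulAut W)} {s t : MulAut W}

theorem typeI (hM : Mod r H s t) (hnil : Group.IsNilpotent ↥⁅H, H⁆) (hI : ∀ w : W, s w = w → w = 1) :
    ∀ a ∈ H, ∀ b ∈ H, a * b = b * a := by
  set D : Subgroup (MulAut W) := ⁅H, H⁆ with hD
  have hsD : ∀ x ∈ D, s * x = x * s :=
    centralizes_nilpotent hM hI D (comm_self_le H) hM.D_normalized hnil
  have hCn : ∀ g ∈ Gam H s t, ∀ z ∈ H ⊓ centralizer (D : Set (MulAut W)),
      g * z * g⁻¹ ∈ H ⊓ centralizer (D : Set (MulAut W)) := fun g hg z hz =>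
    ⟨hM.H_normalized g hg z hz.1, hM.CD_normalized g hg z hz.2⟩
  have hCnil : Group.IsNilpotent ↥(H ⊓ centralizer (D : Set (MulAut W))) := by
    apply nilpotent_of_class_two
    intro a ha b hb c hc
    have h1 : a * b * a⁻¹ * b⁻¹ ∈ D := commutator_mem_commutator ha.1 hb.1
    exact ((mem_centralizer_iff.mp hc.2) _ h1).symm
  have hsC : ∀ x ∈ H ⊓ centralizer (D : Set (MulAut W)), s * x = x * s :=
    centralizes_nilpotent hM hI _ inf_le_left hCn hCnil
  have hsD' : ∀ x ∈ D, s⁻¹ * x * s = x := by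
    intro x hx
    rw [mul_assoc, ← hsD x hx, inv_mul_cancel_left]
  have hsD'' : ∀ x ∈ D, s * x * s⁻¹ = x := by
    intro x hx
    rw [hsD x hx, mul_inv_cancel_right]
  have cop3 : (3 : ℕ).Coprime (Nat.card H) :=
    (Nat.Coprime.coprime_dvd_right (by norm_num : 3 ∣ 6) hM.copH).symm
  have hsH : ∀ h ∈ H, s * h = h * s := by
    intro h hh
    set c : MulAut W := h * s * h⁻¹ * s⁻¹ with hc
    have hcH : c ∈ H := by
      have : c = h * (s * h⁻¹ * s⁻¹) := by rw [hc]; group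
      rw [this]
      exact mul_mem hh (hM.sH _ (inv_mem hh))
    have hcC : c ∈ centralizer (D : Set (MulAut W)) := by
      rw [mem_centralizer_iff]
      intro d hd
      have h1 : h⁻¹ * d * h ∈ D := by
        have := hM.D_normalized h⁻¹ (H_le_Gam H s t (inv_mem hh)) d hd
        rwa [inv_inv] at this
      have h2 : c * d * c⁻¹ = d := by
        calc c * d * c⁻¹ = h * (s * (h⁻¹ * (s⁻¹ * d * s) * h) * s⁻¹) * h⁻¹ := by rw [hc]; group
          _ = h * (s * (h⁻¹ * d * h) * s⁻¹) * h⁻¹ := by rw [hsD' d hd]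
          _ = h * (h⁻¹ * d * h) * h⁻¹ := by rw [hsD'' _ h1]
          _ = d := by group
      rw [mul_inv_eq_iff_eq_mul] at h2
      exact h2.symm
    have hsc : s * c = c * s := hsC c ⟨hcH, hcC⟩
    have hcs : c * s = h * s * h⁻¹ := by rw [hc]; group
    have h3 : (c * s) ^ 3 = 1 := by
      rw [hcs, conj_pow, hM.rel.s3, mul_one, mul_inv_cancel]
    have hcomm : Commute c s := hsc.symm
    rw [hcomm.mul_pow, hM.rel.s3, mul_one] at h3
    have hc1 : c ∈ (⊥ : Subgroup (MulAut W)) :=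
      mem_of_pow_mem' hcH cop3 (by rw [h3]; exact one_mem _)
    rw [mem_bot] at hc1
    rw [hc1, one_mul] at hcs
    calc s * h = (h * s * h⁻¹) * h := by rw [← hcs]
      _ = h * s := by group
  exact abelian_of_fpf_invol H t hM.rel.t2 hM.tH (fun h hh => hM.fixH h hh (hsH h hh))

end Cfsg.Agent.Lib.Helper71.S3
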