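import Mathlib
import Cfsg.Agent.Lib.Helper71.S3.Defs
import Cfsg.Agent.Lib.Helper71.S3.Three

/-!
# Piece T2b: type II implies H abelian
-/

set_option autoImplicit false

namespace Cfsg.Agent.Lib.Helper71.S3

open Subgroup Cfsg.Agent.Lib.Helper22 Cfsg.Agent.Lib.Helper88

variable {W : Type*} [CommGroup W] [Finite W]

variable {r : ℕ} {H : Subgroup (MulAut W)} {s t : MulAut W}

theorem typeII (hM : Mod r H s t) (U : Subgroup W) (hU : U ≠ ⊥) (hHU : ∀ h ∈ H, ∀ u ∈ U, h u ∈ U)
    (htU : ∀ u ∈ U, t u = u⁻¹) : ∀ a ∈ H, ∀ b ∈ H, a * b = b * a := by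
  have rel := hM.rel
  have tinv : t⁻¹ = t := rel.t_inv
  have ss : s * s = s⁻¹ := by rw [rel.s_inv, sq]
  have ss' : s⁻¹ * s⁻¹ = s := by rw [← mul_inv_rev, ss, inv_inv]
  have sH' : ∀ h ∈ H, s⁻¹ * h * s ∈ H := by
    intro h hh
    have h1 := hM.sH _ (hM.sH h hh)
    have e : s * (s * h * s⁻¹) * s⁻¹ = s⁻¹ * h * s := by
      calc s * (s * h * s⁻¹) * s⁻¹ = (s * s) * h * (s⁻¹ * s⁻¹) := by group
        _ = s⁻¹ * h * s := by rw [ss, ss']
    rwa [e] at h1
  let H0 : Subgroup (MulAut W) :=
    { carrier := {h | h ∈ H ∧ ∀ u ∈ U, h u = u}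
      one_mem' := ⟨one_mem _, fun u _ => rfl⟩
      mul_mem' := fun {a b} ha hb => ⟨mul_mem ha.1 hb.1, fun u hu => by
        rw [MulAut.mul_apply, hb.2 u hu, ha.2 u hu]⟩
      inv_mem' := fun {a} ha => ⟨inv_mem ha.1, fun u hu => by
        rw [MulAut.inv_apply, MulEquiv.symm_apply_eq, ha.2 u hu]⟩ }
  have hfin : Finite (MulAut W) :=
    Finite.of_injective (fun e : MulAut W => (e : W → W)) DFunLike.coe_injective
  refine abelian_of_three H s t rel hM.sH hM.tH hM.copH hM.fixH H0 (fun x hx => hx.1) ?_ ?_ ?_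
  · intro h hh x hx
    refine ⟨mul_mem (mul_mem hh hx.1) (inv_mem hh), fun u hu => ?_⟩
    rw [MulAut.mul_apply, MulAut.mul_apply, hx.2 _ (hHU _ (inv_mem hh) u hu), ← MulAut.mul_apply]
    simp
  · intro h hh
    refine ⟨mul_mem (inv_mem hh) (hM.tH h hh), fun u hu => ?_⟩
    rw [tinv]
    simp only [MulAut.mul_apply]
    rw [htU u hu, htU _ (hHU h hh _ (inv_mem hu)), map_inv, ← MulAut.mul_apply]
    simp
  · intro x hx hx1 hx2
    -- the fixed points of `x`
    let Fx : Subgroup W :=
      { carrier := {w | x w = w}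
        one_mem' := map_one x
        mul_mem' := fun {a b} ha hb => by
          show x (a * b) = a * b
          rw [map_mul, ha, hb]
        inv_mem' := fun {a} ha => by
          show x a⁻¹ = a⁻¹
          rw [map_inv, ha] }
    let U' : Subgroup W := U ⊔ U.map (s : W →* W) ⊔ U.map ((s⁻¹ : MulAut W) : W →* W)
    have hU'top : U' = ⊤ := by
      have hne : U' ≠ ⊥ := by
        intro h0
        apply hU
        rw [eq_bot_iff, ← h0]
        exact le_sup_left.trans le_sup_left
      refine (hM.irr' U' ?_ ?_ ?_).resolve_left hne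
      · intro h hh u hu
        have h1 : U' ≤ U'.comap (h : W →* W) := by
          refine sup_le (sup_le ?_ ?_) ?_
          · intro y hy
            exact (le_sup_left.trans le_sup_left : U ≤ U') (hHU h hh y hy)
          · rintro _ ⟨y, hy, rfl⟩
            refine (le_sup_right.trans le_sup_left : U.map (s : W →* W) ≤ U') ?_
            refine ⟨(s⁻¹ * h * s) y, hHU _ (sH' h hh) y hy, ?_⟩
            show s ((s⁻¹ * h * s) y) = h (s y)
            rw [← MulAut.mul_apply, ← MulAut.mul_apply]
            congr 1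
            group
          · rintro _ ⟨y, hy, rfl⟩
            refine (le_sup_right : U.map ((s⁻¹ : MulAut W) : W →* W) ≤ U') ?_
            refine ⟨(s * h * s⁻¹) y, hHU _ (hM.sH h hh) y hy, ?_⟩
            show s⁻¹ ((s * h * s⁻¹) y) = h (s⁻¹ y)
            rw [← MulAut.mul_apply, ← MulAut.mul_apply]
            congr 1
            group
        exact h1 hu
      · intro u hu
        have h1 : U' ≤ U'.comap (s : W →* W) := by
          refine sup_le (sup_le ?_ ?_) ?_
          · intro y hy
            exact (le_sup_right.trans le_sup_left : U.map (s : W →* W) ≤ U') ⟨y, hy, rfl⟩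
          · rintro _ ⟨y, hy, rfl⟩
            refine (le_sup_right : U.map ((s⁻¹ : MulAut W) : W →* W) ≤ U') ⟨y, hy, ?_⟩
            show s⁻¹ y = s (s y)
            rw [← MulAut.mul_apply, ss]
          · rintro _ ⟨y, hy, rfl⟩
            refine (le_sup_left.trans le_sup_left : U ≤ U') ?_
            show s (s⁻¹ y) ∈ U
            rw [← MulAut.mul_apply, mul_inv_cancel]
            exact hy
        exact h1 hu
      · intro u hu
        have ts : t * s = s⁻¹ * t := by
          have := rel.rel
          rw [mul_inv_eq_iff_eq_mul] at this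
          exact this
        have ts' : t * s⁻¹ = s * t := by
          calc t * s⁻¹ = s * (s⁻¹ * t) * s⁻¹ := by group
            _ = s * (t * s) * s⁻¹ := by rw [ts]
            _ = s * t := by group
        have h1 : U' ≤ U'.comap (t : W →* W) := by
          refine sup_le (sup_le ?_ ?_) ?_
          · intro y hy
            refine (le_sup_left.trans le_sup_left : U ≤ U') ?_
            show t y ∈ U
            rw [htU y hy]; exact inv_mem hy
          · rintro _ ⟨y, hy, rfl⟩
            refine (le_sup_right : U.map ((s⁻¹ : MulAut W) : W →* W) ≤ U') ⟨y⁻¹, inv_mem hy, ?_⟩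
            show s⁻¹ y⁻¹ = t (s y)
            rw [← MulAut.mul_apply, ts, MulAut.mul_apply, htU y hy]
          · rintro _ ⟨y, hy, rfl⟩
            refine (le_sup_right.trans le_sup_left : U.map (s : W →* W) ≤ U') ⟨y⁻¹, inv_mem hy, ?_⟩
            show s y⁻¹ = t (s⁻¹ y)
            rw [← MulAut.mul_apply, ts', MulAut.mul_apply, htU y hy]
        exact h1 hu
    have hle : U' ≤ Fx := by
      refine sup_le (sup_le ?_ ?_) ?_
      · intro y hy; exact hx.2 y hy
      · rintro _ ⟨y, hy, rfl⟩
        show x (s y) = s y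
        have h1 := hx2.2 y hy
        simp only [MulAut.mul_apply] at h1
        rw [MulAut.inv_apply, MulEquiv.symm_apply_eq] at h1
        exact h1
      · rintro _ ⟨y, hy, rfl⟩
        show x (s⁻¹ y) = s⁻¹ y
        have h1 := hx1.2 y hy
        simp only [MulAut.mul_apply] at h1
        rw [MulAut.inv_apply, MulEquiv.eq_symm_apply]
        exact h1
    ext w
    have : w ∈ Fx := hle (by rw [hU'top]; trivial)
    exact this

end Cfsg.Agent.Lib.Helper71.S3
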