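import Mathlib
import Cfsg.Agent.Lib.Helper71.S3.Defs
import Cfsg.Agent.Lib.Helper71.S3.CaseA
import Cfsg.Agent.Lib.Helper71.S3.CaseB
import Cfsg.Agent.Lib.Helper71.S3.TypeI
import Cfsg.Agent.Lib.Helper71.S3.TypeII
import Cfsg.Agent.Lib.Helper71.S3.ExZ

/-! # The module theorem (assembly, helper71) -/

set_option autoImplicit false

namespace Cfsg.Agent.Lib.Helper71.S3

open Subgroup Cfsg.Agent.Lib.Helper22 Cfsg.Agent.Lib.Helper88

variable {W : Type*} [CommGroup W] [Finite W]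

variable {r : ℕ} {H : Subgroup (MulAut W)} {s t : MulAut W}

open scoped commutatorElement in
theorem moduleThm (hM : Mod r H s t) (hnil : Group.IsNilpotent ↥⁅H, H⁆) :
    ∀ a ∈ H, ∀ b ∈ H, a * b = b * a := by
  by_cases hne : ⁅H, H⁆ = ⊥
  · intro a ha b hb
    have h1 : ⁅a, b⁆ ∈ ⁅H, H⁆ := commutator_mem_commutator ha hb
    rw [hne, mem_bot] at h1
    exact commutatorElement_eq_one_iff_mul_comm.mp h1
  · obtain ⟨Z, hZ⟩ := exists_Z hM hnil hne
    by_cases hall : ∀ K ∈ Kset Z, conjS s K = K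
    · exact typeI hM hnil (caseB hM hZ hall)
    · push Not at hall
      obtain ⟨K₁, hK₁, hs⟩ := hall
      obtain ⟨U, hU, hHU, htU⟩ := caseA hM hZ hK₁ hs
      exact typeII hM U hU hHU htU

end Cfsg.Agent.Lib.Helper71.S3
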