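import Mathlib
import Cfsg.Agent.Lib.Helper71.S3.Defs
import Cfsg.Agent.Lib.Helper71.S3.FixMap
import Cfsg.Agent.Lib.Helper71.S3.Apply
import Cfsg.Agent.Lib.Helper71.S3.ModThm

/-!
# S4305: the induction

Strong induction on `Nat.card G`.  Choose `V` minimal normal in `Γ` inside `G`; the quotient is handled by
induction, the action on `V` by the module theorem.
-/

set_option autoImplicit false

namespace Cfsg.Agent.Lib.Helper71.S3

open Subgroup Cfsg.Agent.Lib.Helper22

universe u

/-- a minimal normal subgroup inside a nontrivial normal subgroup -/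
theorem exists_minimal_normal {Γ : Type u} [Group Γ] [Finite Γ] (G : Subgroup Γ) (hGn : G.Normal)
    (hG : G ≠ ⊥) : ∃ V : Subgroup Γ, V.Normal ∧ V ≤ G ∧ V ≠ ⊥ ∧
      ∀ M : Subgroup Γ, M.Normal → M ≤ V → M = ⊥ ∨ M = V := by
  classical
  let P : Subgroup Γ → Prop := fun V => V.Normal ∧ V ≤ G ∧ V ≠ ⊥
  obtain ⟨V, hVG, hV⟩ := Finite.exists_le_minimal (p := P) (a := G) ⟨hGn, le_rfl, hG⟩
  refine ⟨V, hV.prop.1, hV.prop.2.1, hV.prop.2.2, ?_⟩
  intro M hMn hMV
  by_cases hM : M = ⊥
  · exact Or.inl hM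
  · exact Or.inr (le_antisymm hMV (hV.le_of_le ⟨hMn, hMV.trans hV.prop.2.1, hM⟩ hMV))

theorem card_map_mk_lt {Γ : Type u} [Group Γ] [Finite Γ] (G V : Subgroup Γ) [V.Normal] (hVG : V ≤ G)
    (hV : V ≠ ⊥) : Nat.card (G.map (QuotientGroup.mk' V)) < Nat.card G := by
  classical
  letI : Fintype G := Fintype.ofFinite G
  letI : Fintype (G.map (QuotientGroup.mk' V)) := Fintype.ofFinite _
  rw [Nat.card_eq_fintype_card, Nat.card_eq_fintype_card]
  let f : G → G.map (QuotientGroup.mk' V) := fun x => ⟨QuotientGroup.mk' V x, mem_map_of_mem _ x.2⟩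
  refine Fintype.card_lt_of_surjective_not_injective f ?_ ?_
  · rintro ⟨_, x, hx, rfl⟩
    exact ⟨⟨x, hx⟩, rfl⟩
  · intro hinj
    apply hV
    rw [eq_bot_iff]
    intro v hv
    have h1 : f ⟨v, hVG hv⟩ = f ⟨1, G.one_mem⟩ := by
      apply Subtype.ext
      show QuotientGroup.mk' V v = QuotientGroup.mk' V 1
      rw [map_one]
      exact (QuotientGroup.eq_one_iff v).mpr hv
    have h2 := congrArg Subtype.val (hinj h1)
    exact mem_bot.mpr h2

theorem main_aux (n : ℕ) : ∀ {Γ : Type u} [Group Γ] [Finite Γ] (G : Subgroup Γ) (s t : Γ),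
    Hyp G s t → Nat.card G = n → ∃ k, (⁅G, G⁆ : Subgroup Γ).lowerCentralSeries k = ⊥ := by
  induction n using Nat.strong_induction_on with
  | _ n ih =>
    intro Γ _ _ G s t h hn
    by_cases hG : G = ⊥
    · refine ⟨0, ?_⟩
      rw [Subgroup.lowerCentralSeries_zero, hG, commutator_bot_left]
    · obtain ⟨V, hVn, hVG, hV1, hmin⟩ := exists_minimal_normal G h.normal hG
      have := hVn
      have hq := h.map (QuotientGroup.mk' V) (QuotientGroup.mk'_surjective V)
      have hlt : Nat.card (G.map (QuotientGroup.mk' V)) < n := hn ▸ card_map_mk_lt G V hVG hV1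
      obtain ⟨k, hk⟩ := ih _ hlt (G.map (QuotientGroup.mk' V)) _ _ hq rfl
      have hkV : (⁅G, G⁆ : Subgroup Γ).lowerCentralSeries k ≤ V := by
        rw [← map_commutator, ← map_lowerCentralSeries] at hk
        have := (Subgroup.map_eq_bot_iff _).mp hk
        rwa [QuotientGroup.ker_mk'] at this
      have hc := h.commutator_le_centralizer V hVG hV1 hmin k hkV
        (fun W _ _ r H s t hM hnil => moduleThm hM hnil)
      refine ⟨k + 1, ?_⟩
      rw [Subgroup.lowerCentralSeries_succ, eq_bot_iff]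
      calc ⁅(⁅G, G⁆ : Subgroup Γ).lowerCentralSeries k, ⁅G, G⁆⁆
          ≤ ⁅V, centralizer (V : Set Γ)⁆ := commutator_mono hkV hc
        _ = ⊥ := by
          rw [commutator_eq_bot_iff_le_centralizer]
          intro v hv
          rw [mem_centralizer_iff]
          intro c hc
          exact (mem_centralizer_iff.mp hc v hv).symm

theorem main {Γ : Type u} [Group Γ] [Finite Γ] (G : Subgroup Γ) (s t : Γ) (h : Hyp G s t) :
    ∃ k, (⁅G, G⁆ : Subgroup Γ).lowerCentralSeries k = ⊥ :=
  main_aux _ G s t h rfl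

end Cfsg.Agent.Lib.Helper71.S3
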