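import Mathlib
import Cfsg.Agent.Lib.Helper71.S3.Defs

/-!
# Piece P: the semidirect product
-/

set_option autoImplicit false

namespace Cfsg.Agent.Lib.Helper71.S3

open Subgroup

universe u

theorem closure_perm3 :
    closure ({finRotate 3, Equiv.swap 0 1} : Set (Equiv.Perm (Fin 3))) = ⊤ := by
  rw [eq_top_iff]
  intro a _
  have hs : finRotate 3 ∈ closure ({finRotate 3, Equiv.swap 0 1} : Set (Equiv.Perm (Fin 3))) :=
    subset_closure (by simp)
  have ht : Equiv.swap (0 : Fin 3) 1 ∈
      closure ({finRotate 3, Equiv.swap 0 1} : Set (Equiv.Perm (Fin 3))) :=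
    subset_closure (by simp)
  have h : ∀ a : Equiv.Perm (Fin 3), ∃ i j : Fin 3,
      a = finRotate 3 ^ (i : ℕ) * Equiv.swap (0 : Fin 3) 1 ^ (j : ℕ) := by decide
  obtain ⟨i, j, rfl⟩ := h a
  exact mul_mem (pow_mem hs _) (pow_mem ht _)

theorem top {G : Type u} [Group G] [Finite G] [Group.IsSolvable G]
    [MulDistribMulAction (Equiv.Perm (Fin 3)) G] (hcop : (Nat.card G).Coprime 6)
    (hfpf : ∀ g : G, (∀ a : Equiv.Perm (Fin 3), a • g = g) → g = 1)
    (hmain : ∀ (Γ : Type u) [Group Γ] [Finite Γ] (G' : Subgroup Γ) (s t : Γ), Hyp G' s t →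
      ∃ k, (⁅G', G'⁆ : Subgroup Γ).lowerCentralSeries k = ⊥) :
    Group.IsNilpotent ↥(commutator G) := by
  let φ : Equiv.Perm (Fin 3) →* MulAut G := MulDistribMulAction.toMulAut (Equiv.Perm (Fin 3)) G
  let inl : G →* G ⋊[φ] Equiv.Perm (Fin 3) := SemidirectProduct.inl
  let inr : Equiv.Perm (Fin 3) →* G ⋊[φ] Equiv.Perm (Fin 3) := SemidirectProduct.inr
  have hinj : Function.Injective inl := SemidirectProduct.inl_injective
  have : Finite (G ⋊[φ] Equiv.Perm (Fin 3)) :=
    Finite.of_equiv _ SemidirectProduct.equivProd.symm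
  have hcomm : ∀ (a : Equiv.Perm (Fin 3)) (g : G), inr a * inl g = inl g * inr a → a • g = g := by
    intro a g h
    have h1 : inr a * inl g * inr a⁻¹ = inl (φ a g) := (SemidirectProduct.inl_aut a g).symm
    rw [h, map_inv, mul_inv_cancel_right] at h1
    exact (hinj h1).symm
  have hyp : Hyp inl.range (inr (finRotate 3)) (inr (Equiv.swap 0 1)) := by
    refine ⟨?_, ?_, ?_, ?_, ?_, ?_⟩
    · exact Rel.map ⟨by decide, by decide, by decide⟩ inr
    · rw [SemidirectProduct.range_inl_eq_ker_rightHom]
      infer_instance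
    · rw [eq_top_iff]
      intro x _
      have hx : x = inl x.left * inr x.right := (SemidirectProduct.inl_left_mul_inr_right x).symm
      rw [hx]
      refine mul_mem (mem_sup_left ⟨_, rfl⟩) (mem_sup_right ?_)
      have h1 : x.right ∈ closure ({finRotate 3, Equiv.swap 0 1} : Set (Equiv.Perm (Fin 3))) := by
        rw [closure_perm3]; trivial
      have h2 := mem_map_of_mem inr h1
      rw [MonoidHom.map_closure] at h2
      simpa [Set.image_pair] using h2
    · exact Group.isSolvable_of_surjective (f := inl.rangeRestrict) inl.rangeRestrict_surjective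
    · rw [Nat.card_congr (MonoidHom.ofInjective hinj).symm.toEquiv]
      exact hcop
    · rintro _ ⟨g, rfl⟩ h1 h2
      have hfix : closure ({finRotate 3, Equiv.swap 0 1} : Set (Equiv.Perm (Fin 3))) ≤
          MulAction.stabilizer (Equiv.Perm (Fin 3)) g := by
        rw [closure_le]
        rintro a (rfl | rfl)
        · exact hcomm _ _ h1
        · exact hcomm _ _ h2
      rw [closure_perm3] at hfix
      rw [hfpf g (fun a => hfix (mem_top a)), map_one]
  obtain ⟨k, hk⟩ := hmain _ inl.range _ _ hyp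
  rw [Subgroup.isNilpotent_iff_lowerCentralSeries]
  refine ⟨k, ?_⟩
  have h1 : (commutator G).map inl = ⁅inl.range, inl.range⁆ := by
    rw [commutator_def, map_commutator, ← MonoidHom.range_eq_map]
  have h2 := map_lowerCentralSeries (commutator G) inl k
  rw [h1, hk] at h2
  exact (map_eq_bot_iff_of_injective _ hinj).1 h2

end Cfsg.Agent.Lib.Helper71.S3
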